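import Mathlib
import Cfsg.Prelude.Def_CaseTheorems

set_option autoImplicit false
set_option linter.unusedSectionVars false
set_option linter.unusedVariables false

/-! `S₆` acting faithfully on a group of order 16 and exponent 2: sections of order 32. -/

namespace Cfsg.Agent.H38.SR4

open Equiv

/-- an extension of `V` by a group containing `S₆` -/
structure Hyp {Y G : Type*} [Group Y] [Group G] (V : Subgroup Y) (φ : Y →* G) (ι : Perm (Fin 6) →* G) : Prop where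
  comm : ∀ x ∈ V, ∀ y ∈ V, x * y = y * x
  sq : ∀ x ∈ V, x * x = 1
  ker : φ.ker = V
  self : ∀ y : Y, (∀ v ∈ V, y * v * y⁻¹ = v) → y ∈ V
  inj : Function.Injective ι
  lift : ∀ s, ∃ y, φ y = ι s
  card : Nat.card V ≤ 16

variable {Y G : Type*} [Group Y] [Finite Y] [Group G] {V : Subgroup Y} {φ : Y →* G} {ι : Perm (Fin 6) →* G}

/-- fixed points of `g` in `V` -/
def cv (V : Subgroup Y) (g : Y) : Subgroup Y where
  carrier := {v | v ∈ V ∧ g * v * g⁻¹ = v}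
  one_mem' := ⟨V.one_mem, by group⟩
  mul_mem' := by
    rintro a b ⟨ha, ha'⟩ ⟨hb, hb'⟩
    refine ⟨V.mul_mem ha hb, ?_⟩
    calc g * (a * b) * g⁻¹ = (g * a * g⁻¹) * (g * b * g⁻¹) := by group
      _ = a * b := by rw [ha', hb']
  inv_mem' := by
    rintro a ⟨ha, ha'⟩
    refine ⟨V.inv_mem ha, ?_⟩
    calc g * a⁻¹ * g⁻¹ = (g * a * g⁻¹)⁻¹ := by group
      _ = a⁻¹ := by rw [ha']

theorem mem_cv {g v : Y} : v ∈ cv V g ↔ v ∈ V ∧ g * v * g⁻¹ = v := Iff.rfl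

theorem cv_le (g : Y) : cv V g ≤ V := fun _ h => h.1

theorem Hyp.normal (h : Hyp V φ ι) : V.Normal := by rw [← h.ker]; infer_instance

theorem Hyp.conj_mem (h : Hyp V φ ι) {v : Y} (hv : v ∈ V) (g : Y) : g * v * g⁻¹ ∈ V := h.normal.conj_mem v hv g

theorem Hyp.inv_eq (h : Hyp V φ ι) {v : Y} (hv : v ∈ V) : v⁻¹ = v := inv_eq_of_mul_eq_one_right (h.sq v hv)

theorem Hyp.exists_mul (h : Hyp V φ ι) {g g' : Y} (hg : φ g = φ g') : ∃ u ∈ V, g' = g * u := by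
  refine ⟨g⁻¹ * g', ?_, by group⟩
  rw [← h.ker, MonoidHom.mem_ker, map_mul, map_inv, hg, inv_mul_cancel]

theorem Hyp.conj_eq (h : Hyp V φ ι) {g g' : Y} (hg : φ g = φ g') {v : Y} (hv : v ∈ V) : g' * v * g'⁻¹ = g * v * g⁻¹ := by
  obtain ⟨u, hu, rfl⟩ := h.exists_mul hg
  calc g * u * v * (g * u)⁻¹ = g * ((u * v) * u⁻¹) * g⁻¹ := by group
    _ = g * v * g⁻¹ := by rw [h.comm u hu v hv, mul_inv_cancel_right]

theorem Hyp.cv_eq (h : Hyp V φ ι) {g g' : Y} (hg : φ g = φ g') : cv V g' = cv V g := by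
  ext v
  rw [mem_cv, mem_cv]
  constructor
  · rintro ⟨hv, h1⟩
    exact ⟨hv, by rw [← h.conj_eq hg hv, h1]⟩
  · rintro ⟨hv, h1⟩
    exact ⟨hv, by rw [h.conj_eq hg hv, h1]⟩

theorem Hyp.cv_conj (h : Hyp V φ ι) (y g : Y) : cv V (y * g * y⁻¹) = (cv V g).map (MulAut.conj y).toMonoidHom := by
  ext v
  rw [mem_cv, Subgroup.mem_map]
  constructor
  · rintro ⟨hv, h1⟩
    refine ⟨y⁻¹ * v * y, ⟨?_, ?_⟩, ?_⟩
    · have := h.conj_mem hv y⁻¹
      rwa [inv_inv] at this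
    · calc g * (y⁻¹ * v * y) * g⁻¹ = y⁻¹ * (y * g * y⁻¹ * v * (y * g * y⁻¹)⁻¹) * y := by group
        _ = y⁻¹ * v * y := by rw [h1]
    · change y * (y⁻¹ * v * y) * y⁻¹ = v
      group
  · rintro ⟨w, ⟨hw, h1⟩, rfl⟩
    change y * w * y⁻¹ ∈ V ∧ _ = y * w * y⁻¹
    refine ⟨h.conj_mem hw y, ?_⟩
    change y * g * y⁻¹ * (y * w * y⁻¹) * (y * g * y⁻¹)⁻¹ = y * w * y⁻¹
    calc y * g * y⁻¹ * (y * w * y⁻¹) * (y * g * y⁻¹)⁻¹ = y * (g * w * g⁻¹) * y⁻¹ := by group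
      _ = y * w * y⁻¹ := by rw [h1]

theorem Hyp.card_cv_conj (h : Hyp V φ ι) (y g g' : Y) (hg : φ g' = φ (y * g * y⁻¹)) :
    Nat.card (cv V g') = Nat.card (cv V g) := by
  rw [h.cv_eq hg.symm, h.cv_conj, Subgroup.card_map_of_injective (MulAut.conj y).injective]

/-- the commutator map `v ↦ [g, v]` -/
def kap (h : Hyp V φ ι) (g : Y) : V →* Y where
  toFun v := g * v * g⁻¹ * (v : Y)⁻¹
  map_one' := by simp
  map_mul' := by
    rintro ⟨v, hv⟩ ⟨w, hw⟩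
    have h1 := h.conj_mem hw g
    have h2 := h.comm v⁻¹ (V.inv_mem hv) (g * w * g⁻¹ * w⁻¹) (V.mul_mem h1 (V.inv_mem hw))
    change g * (v * w) * g⁻¹ * (v * w)⁻¹ = (g * v * g⁻¹ * v⁻¹) * (g * w * g⁻¹ * w⁻¹)
    calc g * (v * w) * g⁻¹ * (v * w)⁻¹ = (g * v * g⁻¹) * ((g * w * g⁻¹ * w⁻¹) * v⁻¹) := by group
      _ = (g * v * g⁻¹) * (v⁻¹ * (g * w * g⁻¹ * w⁻¹)) := by rw [h2]
      _ = (g * v * g⁻¹ * v⁻¹) * (g * w * g⁻¹ * w⁻¹) := by group

theorem kap_apply (h : Hyp V φ ι) (g : Y) (v : V) : kap h g v = g * v * g⁻¹ * (v : Y)⁻¹ := rfl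

theorem card_eq (h : Hyp V φ ι) (g : Y) : Nat.card V = Nat.card (cv V g) * Nat.card (kap h g).range := by
  have h1 : (kap h g).ker = (cv V g).subgroupOf V := by
    ext ⟨v, hv⟩
    rw [MonoidHom.mem_ker, Subgroup.mem_subgroupOf, mem_cv, kap_apply, mul_inv_eq_one]
    exact ⟨fun h => ⟨hv, h⟩, fun h => h.2⟩
  have h2 := (kap h g).ker.card_mul_index
  rw [Subgroup.index_ker, h1, Nat.card_congr (Subgroup.subgroupOfEquivOfLe (cv_le g)).toEquiv] at h2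
  exact h2.symm

theorem card_pow (h : Hyp V φ ι) (A : Subgroup Y) (hA : A ≤ V) : ∃ k, k ≤ 4 ∧ Nat.card A = 2 ^ k := by
  have hp : Fact (Nat.Prime 2) := ⟨Nat.prime_two⟩
  have h1 : IsPGroup 2 A := by
    rintro ⟨a, ha⟩
    exact ⟨1, Subtype.ext (by change a ^ (2 ^ 1) = 1; rw [pow_one, pow_two]; exact h.sq a (hA ha))⟩
  obtain ⟨k, hk⟩ := h1.exists_card_eq
  refine ⟨k, ?_, hk⟩
  by_contra hcon
  push Not at hcon
  have h2 := Nat.le_of_dvd Nat.card_pos (Subgroup.card_dvd_of_le hA)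
  have h3 : 2 ^ 5 ≤ 2 ^ k := Nat.pow_le_pow_right (by norm_num) hcon
  have := h.card
  omega

theorem Hyp.phi_mem (h : Hyp V φ ι) {g : Y} : g ∈ V ↔ φ g = 1 := by rw [← h.ker, MonoidHom.mem_ker]

/-- an element of order 5 -/
theorem cv_five (h : Hyp V φ ι) {g : Y} {s : Perm (Fin 6)} (hg : φ g = ι s) (hs : s ^ 5 = 1) (hs1 : s ≠ 1) :
    Nat.card V = 16 ∧ cv V g = ⊥ := by
  classical
  have hp : Fact (Nat.Prime 5) := ⟨Nat.prime_five⟩
  have : Fintype V := Fintype.ofFinite _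
  let f : Function.End V := fun v => ⟨g * v * g⁻¹, h.conj_mem v.2 g⟩
  have hf0 : ∀ n : ℕ, ∀ v : V, ((f ^ n) v : Y) = g ^ n * v * (g ^ n)⁻¹ := by
    intro n
    induction n with
    | zero =>
      intro v
      change (v : Y) = g ^ 0 * v * (g ^ 0)⁻¹
      simp
    | succ n ih =>
      intro v
      rw [pow_succ']
      change g * ((f ^ n) v : Y) * g⁻¹ = _
      rw [ih, pow_succ']
      group
  have hg5 : g ^ 5 ∈ V := by rw [h.phi_mem, map_pow, hg, ← map_pow, hs, map_one]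
  have hf : f ^ 5 ^ 1 = 1 := by
    funext v
    apply Subtype.ext
    rw [pow_one, hf0, h.comm _ hg5 _ v.2, mul_inv_cancel_right]
    rfl
  have h1 := Equiv.Perm.card_fixedPoints_modEq hf
  have h2 : Fintype.card (Function.fixedPoints f) = Nat.card (cv V g) := by
    rw [← Nat.card_eq_fintype_card]
    refine Nat.card_congr ⟨fun x => ⟨x.1, x.1.2, congrArg Subtype.val (show f x.1 = x.1 from x.2)⟩,
      fun x => ⟨⟨x.1, x.2.1⟩, Subtype.ext x.2.2⟩, fun _ => rfl, fun _ => rfl⟩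
  rw [h2, ← Nat.card_eq_fintype_card] at h1
  obtain ⟨a, ha, hca⟩ := card_pow h V le_rfl
  obtain ⟨b, hb, hcb⟩ := card_pow h (cv V g) (cv_le g)
  rw [hca, hcb] at h1
  have hba : b ≤ a := by
    have := Nat.le_of_dvd Nat.card_pos (Subgroup.card_dvd_of_le (cv_le (V := V) g))
    rw [hca, hcb] at this
    exact (Nat.pow_le_pow_iff_right (by norm_num)).1 this
  have h3 : a = b ∨ (a = 4 ∧ b = 0) := by
    interval_cases a <;> interval_cases b <;> first | omega | (revert h1; decide)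
  rcases h3 with rfl | ⟨rfl, rfl⟩
  · exfalso
    have h4 : cv V g = V := Subgroup.eq_of_le_of_card_ge (cv_le g) (by rw [hca, hcb])
    have h5 : g ∈ V := h.self g (fun v hv => by rw [← h4] at hv; exact hv.2)
    rw [h.phi_mem, hg] at h5
    exact hs1 (h.inj (by rw [h5, map_one]))
  · exact ⟨hca, Subgroup.card_eq_one.1 hcb⟩

/-- a double transposition and its translate -/
def t0 : Perm (Fin 6) := swap 1 4 * swap 2 3
def t1 : Perm (Fin 6) := swap 0 1 * swap 2 4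

theorem t_facts : (t0 * t1) ^ 5 = 1 ∧ t0 * t1 ≠ 1 ∧ (∃ r : Perm (Fin 6), r * t0 * r⁻¹ = t1) ∧ t0 * t0 = 1 ∧ t0 ≠ 1 := by
  refine ⟨by decide +kernel, by decide +kernel, ⟨swap 0 1 * swap 2 4 * swap 0 1 * (swap 0 1 * swap 1 2 * swap 2 3 * swap 3 4)^3, ?_⟩, by decide +kernel, by decide +kernel⟩
  decide +kernel

theorem range_le (h : Hyp V φ ι) (g : Y) : (kap h g).range ≤ V := by
  rintro _ ⟨v, rfl⟩
  exact V.mul_mem (h.conj_mem v.2 g) (V.inv_mem v.2)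

/-- squares of `g` acting trivially: commutators are fixed -/
theorem range_le_cv (h : Hyp V φ ι) (g : Y) (hg : g * g ∈ V) : (kap h g).range ≤ cv V g := by
  rintro _ ⟨⟨v, hv⟩, rfl⟩
  refine ⟨range_le h g ⟨_, rfl⟩, ?_⟩
  rw [kap_apply]
  change g * (g * v * g⁻¹ * v⁻¹) * g⁻¹ = g * v * g⁻¹ * v⁻¹
  have h1 : (g * g) * v * (g * g)⁻¹ = v := by rw [h.comm _ hg _ hv, mul_inv_cancel_right]
  have h2 : g * v * g⁻¹ * v⁻¹ ∈ V := range_le h g ⟨⟨v, hv⟩, rfl⟩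
  calc g * (g * v * g⁻¹ * v⁻¹) * g⁻¹ = ((g * g) * v * (g * g)⁻¹) * (g * v * g⁻¹)⁻¹ := by group
    _ = v * (g * v * g⁻¹)⁻¹ := by rw [h1]
    _ = (g * v * g⁻¹ * v⁻¹)⁻¹ := by group
    _ = g * v * g⁻¹ * v⁻¹ := h.inv_eq h2

theorem card_V (h : Hyp V φ ι) : Nat.card V = 16 := by
  obtain ⟨g, hg⟩ := h.lift (t0 * t1)
  exact (cv_five h hg t_facts.1 t_facts.2.1).1

theorem cv_t (h : Hyp V φ ι) {g : Y} {s : Perm (Fin 6)} (hg : φ g = ι s) (hs : ∃ r : Perm (Fin 6), r * t0 * r⁻¹ = s) :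
    Nat.card (cv V g) = 4 ∧ (kap h g).range = cv V g := by
  obtain ⟨h5, h51, ⟨r1, hr1⟩, h2, -⟩ := t_facts
  obtain ⟨a, ha⟩ := h.lift t0
  obtain ⟨b, hb⟩ := h.lift t1
  have hcc : ∀ (g' : Y) (s' r' : Perm (Fin 6)), φ g' = ι s' → r' * t0 * r'⁻¹ = s' → Nat.card (cv V g') = Nat.card (cv V a) := by
    intro g' s' r' hg' hr'
    obtain ⟨y, hy⟩ := h.lift r'
    refine h.card_cv_conj y a g' ?_
    rw [hg', ← hr', map_mul, map_mul, map_inv, map_mul, map_mul, map_inv, hy, ha]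
  obtain ⟨r, hr⟩ := hs
  have hga := hcc g s r hg hr
  have hba := hcc b t1 r1 hb hr1
  have hbot := (cv_five h (g := a * b) (by rw [map_mul, ha, hb, map_mul]) h5 h51).2
  have hdis : Disjoint (cv V a) (cv V b) := by
    rw [Subgroup.disjoint_def]
    rintro x ⟨hx, hxa⟩ ⟨-, hxb⟩
    have : x ∈ cv V (a * b) := by
      refine ⟨hx, ?_⟩
      calc a * b * x * (a * b)⁻¹ = a * (b * x * b⁻¹) * a⁻¹ := by group
        _ = x := by rw [hxb, hxa]
    rwa [hbot, Subgroup.mem_bot] at this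
  have hinj := Subgroup.mul_injective_of_disjoint hdis
  have hle : Nat.card (cv V a) * Nat.card (cv V b) ≤ 16 := by
    rw [← card_V h, ← Nat.card_prod]
    refine Nat.card_le_card_of_injective (fun x => (⟨(x.1 : Y) * x.2, V.mul_mem x.1.2.1 x.2.2.1⟩ : V)) ?_
    intro x y hxy
    exact hinj (congrArg Subtype.val hxy)
  rw [hba] at hle
  have hgg : g * g ∈ V := by
    rw [h.phi_mem, map_mul, hg, ← map_mul, ← hr]
    rw [show r * t0 * r⁻¹ * (r * t0 * r⁻¹) = r * (t0 * t0) * r⁻¹ by group, h2]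
    simp
  have h3 := card_eq h g
  have h4 := Nat.le_of_dvd Nat.card_pos (Subgroup.card_dvd_of_le (range_le_cv h g hgg))
  rw [card_V h, hga] at h3
  rw [hga] at h4
  have h6 : Nat.card (cv V a) = 4 := by
    have h7 : Nat.card (cv V a) ≤ 4 := by nlinarith
    have h8 : 4 ≤ Nat.card (cv V a) := by nlinarith
    omega
  refine ⟨hga.trans h6, Subgroup.eq_of_le_of_card_ge (range_le_cv h g hgg) ?_⟩
  rw [hga, h6]
  rw [h6] at h3
  omega

/-- centralizing a chain step -/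
theorem step (h : Hyp V φ ι) {A B : Subgroup Y} (hAB : A ≤ B) (hBV : B ≤ V) (hc : Nat.card B ≤ 2 * Nat.card A) (ρ : Y)
    (hA : ∀ a ∈ A, ρ * a * ρ⁻¹ = a) (hB : ∀ b ∈ B, ρ * b * ρ⁻¹ ∈ B) : ∀ b ∈ B, (ρ * ρ) * b * (ρ * ρ)⁻¹ = b := by
  intro b hb
  have key : ρ * b * ρ⁻¹ * b⁻¹ ∈ A := by
    by_cases hbA : b ∈ A
    · rw [hA b hbA, mul_inv_cancel]; exact A.one_mem
    · have hi : (A.subgroupOf B).index = 1 ∨ (A.subgroupOf B).index = 2 := by
        have h1 := (A.subgroupOf B).card_mul_index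
        rw [Nat.card_congr (Subgroup.subgroupOfEquivOfLe hAB).toEquiv] at h1
        have h2 : 0 < Nat.card A := Nat.card_pos
        have h3 : (A.subgroupOf B).index ≤ 2 := by
          by_contra hcon
          push Not at hcon
          have : Nat.card A * 3 ≤ Nat.card A * (A.subgroupOf B).index := Nat.mul_le_mul_left _ hcon
          omega
        have h4 : (A.subgroupOf B).index ≠ 0 := Subgroup.index_ne_zero_of_finite
        omega
      rcases hi with hi | hi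
      · rw [Subgroup.index_eq_one, Subgroup.subgroupOf_eq_top] at hi
        exact (hbA (hi hb)).elim
      · have h5 : ρ * b * ρ⁻¹ ∉ A := by
          intro h6
          have h7 := hA _ h6
          have h8 : ρ * b * ρ⁻¹ = b := by
            have : ρ * (ρ * b * ρ⁻¹) * ρ⁻¹ = ρ * b * ρ⁻¹ := h7
            have h9 : ρ * (ρ * b * ρ⁻¹) = ρ * b * ρ⁻¹ * ρ := by rw [← mul_inv_eq_iff_eq_mul]; exact this
            have h10 : ρ * b * ρ⁻¹ = b * ρ⁻¹ * ρ := by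
              have h11 : ρ * (ρ * b * ρ⁻¹) = ρ * (b * ρ⁻¹ * ρ) := by rw [h9]; group
              exact mul_left_cancel h11
            rw [h10]; group
          rw [h8] at h6
          exact hbA h6
        have h6 := Subgroup.mul_mem_iff_of_index_two hi (a := ⟨_, hB b hb⟩) (b := ⟨b⁻¹, B.inv_mem hb⟩)
        have h7 : (⟨_, hB b hb⟩ * ⟨b⁻¹, B.inv_mem hb⟩ : B) ∈ A.subgroupOf B := by
          rw [h6]
          constructor
          · intro h8
            exact (h5 h8).elim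
          · intro h8
            exact (hbA (by simpa using A.inv_mem (show b⁻¹ ∈ A from h8))).elim
        exact h7
  have h1 := hA _ key
  have hkV : ρ * b * ρ⁻¹ * b⁻¹ ∈ V := hBV (hAB key)
  set k := ρ * b * ρ⁻¹ * b⁻¹ with hk
  have h2 : ρ * b * ρ⁻¹ = k * b := by rw [hk]; group
  calc (ρ * ρ) * b * (ρ * ρ)⁻¹ = ρ * (ρ * b * ρ⁻¹) * ρ⁻¹ := by group
    _ = ρ * (k * b) * ρ⁻¹ := by rw [h2]
    _ = (ρ * k * ρ⁻¹) * (ρ * b * ρ⁻¹) := by group
    _ = k * (k * b) := by rw [h1, h2]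
    _ = b := by rw [← mul_assoc, h.sq k hkV, one_mul]

end Cfsg.Agent.H38.SR4
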