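import Mathlib
import Cfsg.Agent.H38.SR4A
import Cfsg.Agent.H73.Sec

set_option autoImplicit false
set_option linter.unusedSectionVars false
set_option linter.unusedVariables false

/-! `A₅` acting faithfully on a group of exponent 2 and order at most 16. -/

namespace Cfsg.Agent.H38.SA5

open Equiv
open Cfsg.Agent.H38.SR4 (cv mem_cv cv_le)

abbrev A5 := alternatingGroup (Fin 5)

/-- bound for elementary abelian sections -/
theorem rank_bound {Y : Type*} [Group Y] [Finite Y] (hr : Cfsg.SectionalPRankLE 2 4 Y) (E Z : Subgroup Y) (hZE : Z ≤ E)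
    (hn : ∀ e ∈ E, ∀ z ∈ Z, e * z * e⁻¹ ∈ Z) (hsq : ∀ e ∈ E, e * e ∈ Z) : Nat.card E ≤ 16 * Nat.card Z := by
  have h1 := Cfsg.Agent.H73.Sec.relIndex_le hr E Z hZE ?_ (fun x hx => by rw [pow_two]; exact hsq x hx)
  · have h3 : Nat.card Z * Z.relIndex E = Nat.card E := by
      rw [mul_comm]
      have := (Z.subgroupOf E).card_mul_index
      rw [Nat.card_congr (Subgroup.subgroupOfEquivOfLe hZE).toEquiv, mul_comm] at this
      exact this
    rw [← h3, mul_comm]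
    exact Nat.mul_le_mul_right _ h1
  · intro x hx y hy
    have h1 := hsq (x * y) (E.mul_mem hx hy)
    have h2 := hsq x⁻¹ (E.inv_mem hx)
    have h3 := hsq y⁻¹ (E.inv_mem hy)
    have h4 : x * y * x⁻¹ * y⁻¹ = ((x * y) * (x * y)) * (y⁻¹ * (x⁻¹ * x⁻¹) * y⁻¹⁻¹) * (y⁻¹ * y⁻¹) := by group
    rw [h4]
    exact Z.mul_mem (Z.mul_mem h1 (hn _ (E.inv_mem hy) _ h2)) h3

structure Mod5 {Y : Type*} [Group Y] (V P : Subgroup Y) (φ : Y →* A5) : Prop where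
  normal : V.Normal
  comm : ∀ x ∈ V, ∀ y ∈ V, x * y = y * x
  sq : ∀ x ∈ V, x * x = 1
  ker : φ.ker = P
  surj : Function.Surjective φ
  cent : ∀ p ∈ P, ∀ v ∈ V, p * v * p⁻¹ = v
  faith : ∀ y, (∀ v ∈ V, y * v * y⁻¹ = v) → y ∈ P
  card : Nat.card V ≤ 16

variable {Y : Type*} [Group Y] [Finite Y] {V P : Subgroup Y} {φ : Y →* A5}

theorem Mod5.conj_mem (h : Mod5 V P φ) {v : Y} (hv : v ∈ V) (g : Y) : g * v * g⁻¹ ∈ V := h.normal.conj_mem v hv g

theorem Mod5.inv_eq (h : Mod5 V P φ) {v : Y} (hv : v ∈ V) : v⁻¹ = v := inv_eq_of_mul_eq_one_right (h.sq v hv)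

theorem Mod5.phi_mem (h : Mod5 V P φ) {g : Y} : g ∈ P ↔ φ g = 1 := by rw [← h.ker, MonoidHom.mem_ker]

theorem Mod5.exists_mul (h : Mod5 V P φ) {g g' : Y} (hg : φ g = φ g') : ∃ u ∈ P, g' = g * u := by
  refine ⟨g⁻¹ * g', ?_, by group⟩
  rw [h.phi_mem, map_mul, map_inv, hg, inv_mul_cancel]

theorem Mod5.conj_eq (h : Mod5 V P φ) {g g' : Y} (hg : φ g = φ g') {v : Y} (hv : v ∈ V) : g' * v * g'⁻¹ = g * v * g⁻¹ := by
  obtain ⟨u, hu, rfl⟩ := h.exists_mul hg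
  calc g * u * v * (g * u)⁻¹ = g * (u * v * u⁻¹) * g⁻¹ := by group
    _ = g * v * g⁻¹ := by rw [h.cent u hu v hv]

theorem Mod5.cv_eq (h : Mod5 V P φ) {g g' : Y} (hg : φ g = φ g') : cv V g' = cv V g := by
  ext v
  rw [mem_cv, mem_cv]
  constructor
  · rintro ⟨hv, h1⟩
    exact ⟨hv, by rw [← h.conj_eq hg hv, h1]⟩
  · rintro ⟨hv, h1⟩
    exact ⟨hv, by rw [h.conj_eq hg hv, h1]⟩

theorem Mod5.cv_conj (h : Mod5 V P φ) (y g : Y) : cv V (y * g * y⁻¹) = (cv V g).map (MulAut.conj y).toMonoidHom := by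
  ext v
  rw [mem_cv, Subgroup.mem_map]
  constructor
  · rintro ⟨hv, h1⟩
    refine ⟨y⁻¹ * v * y, ⟨?_, ?_⟩, ?_⟩
    · have := h.conj_mem hv y⁻¹
      rwa [inv_inv] at this
    · calc g * (y⁻¹ * v * y) * g⁻¹ = y⁻¹ * (y * g * y⁻¹ * v * (y * g * y⁻¹)⁻¹) * y := by group
        _ = y⁻¹ * v * y := by rw [h1]
    · change y * (y⁻¹ * v * y) * y⁻¹ = v
      group
  · rintro ⟨w, ⟨hw, h1⟩, rfl⟩
    change y * w * y⁻¹ ∈ V ∧ _ = y * w * y⁻¹
    refine ⟨h.conj_mem hw y, ?_⟩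
    change y * g * y⁻¹ * (y * w * y⁻¹) * (y * g * y⁻¹)⁻¹ = y * w * y⁻¹
    calc y * g * y⁻¹ * (y * w * y⁻¹) * (y * g * y⁻¹)⁻¹ = y * (g * w * g⁻¹) * y⁻¹ := by group
      _ = y * w * y⁻¹ := by rw [h1]

theorem Mod5.card_cv_conj (h : Mod5 V P φ) (y g g' : Y) (hg : φ g' = φ (y * g * y⁻¹)) :
    Nat.card (cv V g') = Nat.card (cv V g) := by
  rw [h.cv_eq hg.symm, h.cv_conj, Subgroup.card_map_of_injective (MulAut.conj y).injective]

/-- the commutator map `v ↦ [g, v]` -/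
def kap (h : Mod5 V P φ) (g : Y) : V →* Y where
  toFun v := g * v * g⁻¹ * (v : Y)⁻¹
  map_one' := by simp
  map_mul' := by
    rintro ⟨v, hv⟩ ⟨w, hw⟩
    have h1 := h.conj_mem hw g
    have h2 := h.comm v⁻¹ (V.inv_mem hv) (g * w * g⁻¹ * w⁻¹) (V.mul_mem h1 (V.inv_mem hw))
    change g * (v * w) * g⁻¹ * (v * w)⁻¹ = (g * v * g⁻¹ * v⁻¹) * (g * w * g⁻¹ * w⁻¹)
    calc g * (v * w) * g⁻¹ * (v * w)⁻¹ = (g * v * g⁻¹) * ((g * w * g⁻¹ * w⁻¹) * v⁻¹) := by group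
      _ = (g * v * g⁻¹) * (v⁻¹ * (g * w * g⁻¹ * w⁻¹)) := by rw [h2]
      _ = (g * v * g⁻¹ * v⁻¹) * (g * w * g⁻¹ * w⁻¹) := by group

theorem kap_apply (h : Mod5 V P φ) (g : Y) (v : V) : kap h g v = g * v * g⁻¹ * (v : Y)⁻¹ := rfl

theorem card_eq (h : Mod5 V P φ) (g : Y) : Nat.card V = Nat.card (cv V g) * Nat.card (kap h g).range := by
  have h1 : (kap h g).ker = (cv V g).subgroupOf V := by
    ext ⟨v, hv⟩
    rw [MonoidHom.mem_ker, Subgroup.mem_subgroupOf, mem_cv, kap_apply, mul_inv_eq_one]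
    exact ⟨fun h => ⟨hv, h⟩, fun h => h.2⟩
  have h2 := (kap h g).ker.card_mul_index
  rw [Subgroup.index_ker, h1, Nat.card_congr (Subgroup.subgroupOfEquivOfLe (cv_le g)).toEquiv] at h2
  exact h2.symm

theorem card_pow (h : Mod5 V P φ) (A : Subgroup Y) (hA : A ≤ V) : ∃ k, k ≤ 4 ∧ Nat.card A = 2 ^ k := by
  have hp : Fact (Nat.Prime 2) := ⟨Nat.prime_two⟩
  have h1 : IsPGroup 2 A := by
    rintro ⟨a, ha⟩
    exact ⟨1, Subtype.ext (by change a ^ (2 ^ 1) = 1; rw [pow_one, pow_two]; exact h.sq a (hA ha))⟩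
  obtain ⟨k, hk⟩ := h1.exists_card_eq
  refine ⟨k, ?_, hk⟩
  by_contra hcon
  push Not at hcon
  have h2 := Nat.le_of_dvd Nat.card_pos (Subgroup.card_dvd_of_le hA)
  have h3 : 2 ^ 5 ≤ 2 ^ k := Nat.pow_le_pow_right (by norm_num) hcon
  have := h.card
  omega

/-- an invariant subgroup of `V` and an element of order 5 -/
theorem inv_five (h : Mod5 V P φ) {g : Y} {s : A5} (hg : φ g = s) (hs : s ^ 5 = 1) {U : Subgroup Y}
    (hU : U ≤ V) (hinv : ∀ u ∈ U, g * u * g⁻¹ ∈ U) : ∃ a b, b ≤ a ∧ a ≤ 4 ∧ Nat.card U = 2 ^ a ∧ Nat.card (cv U g) = 2 ^ b ∧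
      (a = b ∨ (a = 4 ∧ b = 0)) := by
  classical
  have hp : Fact (Nat.Prime 5) := ⟨Nat.prime_five⟩
  have : Fintype U := Fintype.ofFinite _
  let f : Function.End U := fun v => ⟨g * v * g⁻¹, hinv v v.2⟩
  have hf0 : ∀ n : ℕ, ∀ v : U, ((f ^ n) v : Y) = g ^ n * v * (g ^ n)⁻¹ := by
    intro n
    induction n with
    | zero =>
      intro v
      change (v : Y) = g ^ 0 * v * (g ^ 0)⁻¹
      simp
    | succ n ih =>
      intro v
      rw [pow_succ']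
      change g * ((f ^ n) v : Y) * g⁻¹ = _
      rw [ih, pow_succ']
      group
  have hg5 : g ^ 5 ∈ P := by rw [h.phi_mem, map_pow, hg, hs]
  have hf : f ^ 5 ^ 1 = 1 := by
    funext v
    apply Subtype.ext
    rw [pow_one, hf0, h.cent _ hg5 _ (hU v.2)]
    rfl
  have h1 := Equiv.Perm.card_fixedPoints_modEq hf
  have h2 : Fintype.card (Function.fixedPoints f) = Nat.card (cv U g) := by
    rw [← Nat.card_eq_fintype_card]
    refine Nat.card_congr ⟨fun x => ⟨x.1, x.1.2, congrArg Subtype.val (show f x.1 = x.1 from x.2)⟩,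
      fun x => ⟨⟨x.1, x.2.1⟩, Subtype.ext x.2.2⟩, fun _ => rfl, fun _ => rfl⟩
  rw [h2, ← Nat.card_eq_fintype_card] at h1
  obtain ⟨a, ha, hca⟩ := card_pow h U hU
  obtain ⟨b, hb, hcb⟩ := card_pow h (cv U g) ((cv_le g).trans hU)
  rw [hca, hcb] at h1
  have hba : b ≤ a := by
    have := Nat.le_of_dvd Nat.card_pos (Subgroup.card_dvd_of_le (cv_le (V := U) g))
    rw [hca, hcb] at this
    exact (Nat.pow_le_pow_iff_right (by norm_num)).1 this
  refine ⟨a, b, hba, ha, hca, hcb, ?_⟩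
  interval_cases a <;> interval_cases b <;> first | omega | (revert h1; decide)

/-- an element of order 5 -/
theorem cv_five (h : Mod5 V P φ) {g : Y} {s : A5} (hg : φ g = s) (hs : s ^ 5 = 1) (hs1 : s ≠ 1) :
    Nat.card V = 16 ∧ cv V g = ⊥ := by
  obtain ⟨a, b, hba, ha, hca, hcb, h3⟩ := inv_five h hg hs le_rfl (fun u hu => h.conj_mem hu g)
  rcases h3 with rfl | ⟨rfl, rfl⟩
  · exfalso
    have h4 : cv V g = V := Subgroup.eq_of_le_of_card_ge (cv_le g) (by rw [hca, hcb])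
    have h5 : g ∈ P := h.faith g (fun v hv => by rw [← h4] at hv; exact hv.2)
    rw [h.phi_mem, hg] at h5
    exact hs1 h5
  · exact ⟨hca, Subgroup.card_eq_one.1 hcb⟩

/-- a subgroup invariant under an element of order 5 is trivial or everything -/
theorem irred_five (h : Mod5 V P φ) {g : Y} {s : A5} (hg : φ g = s) (hs : s ^ 5 = 1) (hs1 : s ≠ 1) {U : Subgroup Y}
    (hU : U ≤ V) (hinv : ∀ u ∈ U, g * u * g⁻¹ ∈ U) : U = ⊥ ∨ U = V := by
  obtain ⟨a, b, hba, ha, hca, hcb, h3⟩ := inv_five h hg hs hU hinv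
  obtain ⟨h16, hbot⟩ := cv_five h hg hs hs1
  have hb0 : b = 0 := by
    have h4 : cv U g ≤ cv V g := fun x hx => ⟨hU hx.1, hx.2⟩
    rw [hbot, le_bot_iff] at h4
    rw [h4, Subgroup.card_bot] at hcb
    by_contra hb
    have : 2 ^ b ≠ 1 := (Nat.one_lt_two_pow hb).ne'
    exact this hcb.symm
  subst hb0
  rcases h3 with rfl | ⟨rfl, -⟩
  · left
    exact Subgroup.card_eq_one.1 hca
  · right
    exact Subgroup.eq_of_le_of_card_ge hU (by rw [h16, hca]; norm_num)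

def t0 : A5 := ⟨swap 1 4 * swap 2 3, by rw [Equiv.Perm.mem_alternatingGroup]; decide +kernel⟩
def t1 : A5 := ⟨swap 0 1 * swap 2 4, by rw [Equiv.Perm.mem_alternatingGroup]; decide +kernel⟩

theorem t_facts : (t0 * t1) ^ 5 = 1 ∧ t0 * t1 ≠ 1 ∧ (∃ r : A5, r * t0 * r⁻¹ = t1) ∧ t0 * t0 = 1 ∧ t0 ≠ 1 := by
  refine ⟨by decide +kernel, by decide +kernel, ⟨⟨(swap 0 1 * swap 1 2 * swap 2 3 * swap 3 4)^3, by rw [Equiv.Perm.mem_alternatingGroup]; decide +kernel⟩, ?_⟩, by decide +kernel, by decide +kernel⟩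
  decide +kernel

theorem range_le (h : Mod5 V P φ) (g : Y) : (kap h g).range ≤ V := by
  rintro _ ⟨v, rfl⟩
  exact V.mul_mem (h.conj_mem v.2 g) (V.inv_mem v.2)

theorem range_le_cv (h : Mod5 V P φ) (g : Y) (hg : g * g ∈ P) : (kap h g).range ≤ cv V g := by
  rintro _ ⟨⟨v, hv⟩, rfl⟩
  refine ⟨range_le h g ⟨_, rfl⟩, ?_⟩
  rw [kap_apply]
  change g * (g * v * g⁻¹ * v⁻¹) * g⁻¹ = g * v * g⁻¹ * v⁻¹
  have h1 : (g * g) * v * (g * g)⁻¹ = v := h.cent _ hg _ hv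
  have h2 : g * v * g⁻¹ * v⁻¹ ∈ V := range_le h g ⟨⟨v, hv⟩, rfl⟩
  calc g * (g * v * g⁻¹ * v⁻¹) * g⁻¹ = ((g * g) * v * (g * g)⁻¹) * (g * v * g⁻¹)⁻¹ := by group
    _ = v * (g * v * g⁻¹)⁻¹ := by rw [h1]
    _ = (g * v * g⁻¹ * v⁻¹)⁻¹ := by group
    _ = g * v * g⁻¹ * v⁻¹ := h.inv_eq h2

theorem card_V (h : Mod5 V P φ) : Nat.card V = 16 := by
  obtain ⟨g, hg⟩ := h.surj (t0 * t1)
  exact (cv_five h hg t_facts.1 t_facts.2.1).1

theorem cv_t (h : Mod5 V P φ) {g : Y} {s : A5} (hg : φ g = s) (hs : ∃ r : A5, r * t0 * r⁻¹ = s) :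
    Nat.card (cv V g) = 4 ∧ (kap h g).range = cv V g := by
  obtain ⟨h5, h51, ⟨r1, hr1⟩, h2, -⟩ := t_facts
  obtain ⟨a, ha⟩ := h.surj t0
  obtain ⟨b, hb⟩ := h.surj t1
  have hcc : ∀ (g' : Y) (s' r' : A5), φ g' = s' → r' * t0 * r'⁻¹ = s' → Nat.card (cv V g') = Nat.card (cv V a) := by
    intro g' s' r' hg' hr'
    obtain ⟨y, hy⟩ := h.surj r'
    refine h.card_cv_conj y a g' ?_
    rw [hg', ← hr', map_mul, map_mul, map_inv, hy, ha]
  obtain ⟨r, hr⟩ := hs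
  have hga := hcc g s r hg hr
  have hba := hcc b t1 r1 hb hr1
  have hbot := (cv_five h (g := a * b) (by rw [map_mul, ha, hb]) h5 h51).2
  have hdis : Disjoint (cv V a) (cv V b) := by
    rw [Subgroup.disjoint_def]
    rintro x ⟨hx, hxa⟩ ⟨-, hxb⟩
    have : x ∈ cv V (a * b) := by
      refine ⟨hx, ?_⟩
      calc a * b * x * (a * b)⁻¹ = a * (b * x * b⁻¹) * a⁻¹ := by group
        _ = x := by rw [hxb, hxa]
    rwa [hbot, Subgroup.mem_bot] at this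
  have hinj := Subgroup.mul_injective_of_disjoint hdis
  have hle : Nat.card (cv V a) * Nat.card (cv V b) ≤ 16 := by
    rw [← card_V h, ← Nat.card_prod]
    refine Nat.card_le_card_of_injective (fun x => (⟨(x.1 : Y) * x.2, V.mul_mem x.1.2.1 x.2.2.1⟩ : V)) ?_
    intro x y hxy
    exact hinj (congrArg Subtype.val hxy)
  rw [hba] at hle
  have hgg : g * g ∈ P := by
    rw [h.phi_mem, map_mul, hg, ← hr]
    rw [show r * t0 * r⁻¹ * (r * t0 * r⁻¹) = r * (t0 * t0) * r⁻¹ by group, h2]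
    simp
  have h3 := card_eq h g
  have h4 := Nat.le_of_dvd Nat.card_pos (Subgroup.card_dvd_of_le (range_le_cv h g hgg))
  rw [card_V h, hga] at h3
  rw [hga] at h4
  have h6 : Nat.card (cv V a) = 4 := by
    have h7 : Nat.card (cv V a) ≤ 4 := by nlinarith
    have h8 : 4 ≤ Nat.card (cv V a) := by nlinarith
    omega
  refine ⟨hga.trans h6, Subgroup.eq_of_le_of_card_ge (range_le_cv h g hgg) ?_⟩
  rw [hga, h6]
  rw [h6] at h3
  omega

/-- adjoining one element -/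
def adj (R : Subgroup Y) (q : Y) (hq : q * q ∈ R) (hc : ∀ r ∈ R, q * r * q⁻¹ ∈ R) : Subgroup Y where
  carrier := {x | x ∈ R ∨ q * x ∈ R}
  one_mem' := Or.inl R.one_mem
  mul_mem' := by
    have hc' : ∀ r ∈ R, q⁻¹ * r * q ∈ R := by
      intro r hr
      have h1 := R.mul_mem (R.mul_mem (R.inv_mem hq) (hc r hr)) hq
      have h2 : (q * q)⁻¹ * (q * r * q⁻¹) * (q * q) = q⁻¹ * r * q := by group
      rwa [h2] at h1
    rintro a b (ha | ha) (hb | hb)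
    · exact Or.inl (R.mul_mem ha hb)
    · right
      have h1 := R.mul_mem (hc a ha) hb
      have h2 : (q * a * q⁻¹) * (q * b) = q * (a * b) := by group
      rwa [h2] at h1
    · right
      rw [← mul_assoc]
      exact R.mul_mem ha hb
    · left
      have h1 := R.mul_mem (R.mul_mem (hc' _ ha) (R.inv_mem hq)) hb
      have h2 : (q⁻¹ * (q * a) * q) * (q * q)⁻¹ * (q * b) = a * b := by group
      rwa [h2] at h1
  inv_mem' := by
    rintro a (ha | ha)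
    · exact Or.inl (R.inv_mem ha)
    · right
      have h1 := R.mul_mem (hc _ (R.inv_mem ha)) hq
      have h2 : (q * (q * a)⁻¹ * q⁻¹) * (q * q) = q * a⁻¹ := by group
      rwa [h2] at h1

theorem le_adj {R : Subgroup Y} {q : Y} {hq : q * q ∈ R} {hc : ∀ r ∈ R, q * r * q⁻¹ ∈ R} : R ≤ adj R q hq hc :=
  fun x hx => Or.inl hx

theorem card_adj {R : Subgroup Y} {q : Y} {hq : q * q ∈ R} {hc : ∀ r ∈ R, q * r * q⁻¹ ∈ R} (hqR : q ∉ R) :
    2 * Nat.card R ≤ Nat.card (adj R q hq hc) := by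
  have h1 : Nat.card R ∣ Nat.card (adj R q hq hc) := Subgroup.card_dvd_of_le le_adj
  obtain ⟨k, hk⟩ := h1
  have hk0 : k ≠ 0 := by
    rintro rfl
    have : 0 < Nat.card (adj R q hq hc) := Nat.card_pos
    omega
  have hk1 : k ≠ 1 := by
    rintro rfl
    have h2 := Subgroup.eq_of_le_of_card_ge (le_adj (R := R) (q := q) (hq := hq) (hc := hc)) (by rw [hk, mul_one])
    apply hqR
    rw [h2]
    exact Or.inr hq
  rw [hk, mul_comm]
  exact Nat.mul_le_mul_left _ (by omega)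

end Cfsg.Agent.H38.SA5
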