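import Mathlib
import Cfsg.Agent.H38.SA5A

set_option autoImplicit false
set_option linter.unusedSectionVars false
set_option linter.unusedVariables false

/-! Two nontrivial chief factors for `A₅`: sectional rank at least 5. -/

namespace Cfsg.Agent.H38.SA5

open Equiv
open Cfsg.Agent.H38.SR4 (cv mem_cv cv_le)

variable {Y : Type*} [Group Y] [Finite Y] {P : Subgroup Y} {φ : Y →* A5}

theorem card_comap_mk (W : Subgroup Y) [W.Normal] (K : Subgroup (Y ⧸ W)) :
    Nat.card (K.comap (QuotientGroup.mk' W)) = Nat.card K * Nat.card W := by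
  have h1 := Subgroup.index_comap_of_surjective K (QuotientGroup.mk'_surjective W)
  have h2 := (K.comap (QuotientGroup.mk' W)).card_mul_index
  have h3 := K.card_mul_index
  have h4 := W.card_mul_index
  rw [Subgroup.index] at h4
  rw [← h4, ← h3, h1] at h2
  have h5 : 0 < K.index := Nat.pos_of_ne_zero Subgroup.index_ne_zero_of_finite
  have h6 : Nat.card (K.comap (QuotientGroup.mk' W)) * K.index = (Nat.card K * Nat.card W) * K.index := by
    rw [h2]; ring
  exact Nat.eq_of_mul_eq_mul_right h5 h6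

theorem no_double {W : Subgroup Y} [hWn : W.Normal] (hW : Mod5 W P φ) (hWP : W ≤ P) (φ' : Y ⧸ W →* A5)
    (hφ' : ∀ y : Y, φ' (QuotientGroup.mk y) = φ y)
    (hV : Mod5 (P.map (QuotientGroup.mk' W)) (P.map (QuotientGroup.mk' W)) φ')
    (hr : Cfsg.SectionalPRankLE 2 4 Y) : False := by
  classical
  set π := QuotientGroup.mk' W with hπ
  have hπφ : ∀ y : Y, φ' (π y) = φ y := hφ'
  have hπ1 : ∀ y : Y, π y = 1 ↔ y ∈ W := fun y => QuotientGroup.eq_one_iff y
  have hπP : ∀ y : Y, π y ∈ P.map π ↔ y ∈ P := by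
    intro y
    rw [hV.phi_mem, hπφ, ← hW.phi_mem]
  obtain ⟨h5, h51, hr1, h2, h20⟩ := t_facts
  obtain ⟨a, ha⟩ := hW.surj t0
  have haa : a * a ∈ P := by rw [hW.phi_mem, map_mul, ha, h2]
  have h1 := cv_t hV (g := π a) (s := t0) (by rw [hπφ, ha]) ⟨1, by group⟩
  have h3 : π (a * a) ∈ cv (P.map π) (π a) := by
    refine ⟨(hπP _).2 haa, ?_⟩
    rw [map_mul]; group
  rw [← h1.2] at h3
  obtain ⟨⟨v, hv⟩, hv'⟩ := h3
  obtain ⟨x, hx, rfl⟩ := hv
  have hx : x ∈ P := hx
  rw [kap_apply] at hv'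
  change π a * π x * (π a)⁻¹ * (π x)⁻¹ = π (a * a) at hv'
  set t := a * x with ht
  have hφx : φ x = 1 := hW.phi_mem.1 hx
  have hφt : φ t = t0 := by rw [ht, map_mul, ha, hφx, mul_one]
  have htt : t * t ∈ W := by
    rw [← hπ1]
    have h4 : π (t * t) = (π a * π x * (π a)⁻¹ * (π x)⁻¹) * (π x * (π (a * a) * π x)) := by
      rw [ht]
      simp only [map_mul]
      group
    rw [h4, hv', hV.comm _ ((hπP _).2 haa) _ ((hπP _).2 hx), ← mul_assoc (π x), hV.sq _ ((hπP _).2 hx), one_mul,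
      hV.sq _ ((hπP _).2 haa)]
  have htP : t ∉ P := by
    rw [hW.phi_mem, hφt]
    exact h20
  -- the subgroup `H`
  let H : Subgroup Y := (cv (P.map π) (π t)).comap π
  have hHmem : ∀ y, y ∈ H ↔ y ∈ P ∧ π t * π y * (π t)⁻¹ = π y := by
    intro y
    rw [Subgroup.mem_comap, mem_cv, hπP]
  have hHc : Nat.card H = 64 := by
    rw [card_comap_mk, (cv_t hV (g := π t) (s := t0) (by rw [hπφ, hφt]) ⟨1, by group⟩).1, card_V hW]
  have hWH : W ≤ H := by
    intro w hw
    rw [hHmem]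
    refine ⟨hWP hw, ?_⟩
    rw [(hπ1 w).2 hw]; group
  have hWcomm : ∀ w ∈ W, ∀ p ∈ P, w * p = p * w := by
    intro w hw p hp
    have := hW.cent p hp w hw
    rw [mul_inv_eq_iff_eq_mul] at this
    exact this.symm
  have htH : ∀ r ∈ H, t * r * t⁻¹ ∈ H := by
    intro r hr
    rw [hHmem] at hr ⊢
    constructor
    · have hPn : P.Normal := by rw [← hW.ker]; infer_instance
      exact hPn.conj_mem r hr.1 t
    · simp only [map_mul, map_inv]
      rw [hr.2]
      exact hr.2
  obtain ⟨hZ4, -⟩ := cv_t hW (g := t) hφt ⟨1, by group⟩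
  set Z := cv W t with hZ
  have hZt : ∀ z ∈ Z, t⁻¹ * z * t = z := by
    intro z hz
    have := hz.2
    calc t⁻¹ * z * t = t⁻¹ * (t * z * t⁻¹) * t := by rw [this]
      _ = z := by group
  let E := adj H t (hWH htt) htH
  have hEc : 128 ≤ Nat.card E := by
    have := card_adj (R := H) (q := t) (hq := hWH htt) (hc := htH) (fun h => htP ((hHmem t).1 h).1)
    rw [hHc] at this
    exact this
  have hw : ∀ h ∈ H, ∃ w ∈ Z, t⁻¹ * h * t = h * w := by
    intro h hh
    have hhP := ((hHmem h).1 hh).1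
    have h4 : h⁻¹ * (t⁻¹ * h * t) ∈ W := by
      rw [← hπ1]
      have h5 := ((hHmem h).1 hh).2
      have h6 : (π t)⁻¹ * π h * π t = π h := by
        calc (π t)⁻¹ * π h * π t = (π t)⁻¹ * (π t * π h * (π t)⁻¹) * π t := by rw [h5]
          _ = π h := by group
      simp only [map_mul, map_inv]
      rw [h6, inv_mul_cancel]
    set w := h⁻¹ * (t⁻¹ * h * t) with hw
    have h7 : t⁻¹ * h * t = h * w := by rw [hw]; group
    refine ⟨w, ⟨h4, ?_⟩, h7⟩
    have h8 : (t * t)⁻¹ * h * (t * t) = h := by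
      rw [mul_assoc, ← hWcomm _ htt h hhP, inv_mul_cancel_left]
    have h9 : h * (w * (t⁻¹ * w * t)) = h := by
      calc h * (w * (t⁻¹ * w * t)) = (h * w) * (t⁻¹ * w * t) := by group
        _ = (t⁻¹ * h * t) * (t⁻¹ * w * t) := by rw [h7]
        _ = t⁻¹ * (h * w) * t := by group
        _ = t⁻¹ * (t⁻¹ * h * t) * t := by rw [h7]
        _ = (t * t)⁻¹ * h * (t * t) := by group
        _ = h := h8
    rw [mul_eq_left] at h9
    have h10 : t⁻¹ * w * t = w := (eq_inv_of_mul_eq_one_right h9).trans (hW.inv_eq h4)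
    calc t * w * t⁻¹ = t * (t⁻¹ * w * t) * t⁻¹ := by rw [h10]
      _ = w := by group
  have hhh : ∀ h ∈ H, h * h ∈ Z := by
    intro h hh
    have hhP := ((hHmem h).1 hh).1
    obtain ⟨w, hwZ, h7⟩ := hw h hh
    have hhW : h * h ∈ W := by
      rw [← hπ1, map_mul]
      exact hV.sq _ ((hπP _).2 hhP)
    refine ⟨hhW, ?_⟩
    have h8 : t⁻¹ * (h * h) * t = h * h := by
      calc t⁻¹ * (h * h) * t = (t⁻¹ * h * t) * (t⁻¹ * h * t) := by group
        _ = (h * w) * (h * w) := by rw [h7]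
        _ = h * (w * h) * w := by group
        _ = h * (h * w) * w := by rw [hWcomm w hwZ.1 h hhP]
        _ = (h * h) * (w * w) := by group
        _ = h * h := by rw [hW.sq w hwZ.1, mul_one]
    calc t * (h * h) * t⁻¹ = t * (t⁻¹ * (h * h) * t) * t⁻¹ := by rw [h8]
      _ = h * h := by group
  have hZH : Z ≤ H := (cv_le t).trans hWH
  have key := rank_bound hr E Z (hZH.trans le_adj) ?_ ?_
  · rw [hZ4] at key
    omega
  · rintro e (he | he) z hz
    · rw [hW.cent e ((hHmem e).1 he).1 z hz.1]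
      exact hz
    · have h4 : e * z * e⁻¹ = t⁻¹ * ((t * e) * z * (t * e)⁻¹) * t := by group
      rw [h4, hW.cent _ ((hHmem _).1 he).1 z hz.1, hZt z hz]
      exact hz
  · rintro e (he | he)
    · exact hhh e he
    · set h := t * e with hh
      obtain ⟨w, hwZ, h7⟩ := hw h he
      have hhP := ((hHmem h).1 he).1
      have h8 : e * e = (h * h) * w * (t * t)⁻¹ := by
        have he' : e = t⁻¹ * h := by rw [hh]; group
        calc e * e = (t⁻¹ * h * t) * ((t * t)⁻¹ * h) := by rw [he']; group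
          _ = (h * w) * ((t * t)⁻¹ * h) := by rw [h7]
          _ = (h * w) * (h * (t * t)⁻¹) := by rw [hWcomm _ (W.inv_mem htt) h hhP]
          _ = h * (w * h) * (t * t)⁻¹ := by group
          _ = h * (h * w) * (t * t)⁻¹ := by rw [hWcomm w hwZ.1 h hhP]
          _ = (h * h) * w * (t * t)⁻¹ := by group
      rw [h8]
      refine Z.mul_mem (Z.mul_mem (hhh h he) hwZ) (Z.inv_mem ⟨htt, by group⟩)

end Cfsg.Agent.H38.SA5
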