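import Mathlib
import Cfsg.Agent.H38.SA5B

set_option autoImplicit false
set_option linter.unusedSectionVars false
set_option linter.unusedVariables false

/-! The Frattini subgroup of the radical: chief factors. -/

namespace Cfsg.Agent.H38.SA5

open Equiv
open Cfsg.Agent.H38.SR4 (cv mem_cv cv_le)

variable {Y : Type*} [Group Y] {P : Subgroup Y} {φ : Y →* A5}

/-- the subgroup generated by squares -/
def sqs (P : Subgroup Y) : Subgroup Y := Subgroup.closure {z | ∃ x ∈ P, z = x * x}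

theorem mem_sqs {x : Y} (hx : x ∈ P) : x * x ∈ sqs P := Subgroup.subset_closure ⟨x, hx, rfl⟩

theorem sqs_le (P : Subgroup Y) : sqs P ≤ P := by
  rw [sqs, Subgroup.closure_le]
  rintro _ ⟨x, hx, rfl⟩
  exact P.mul_mem hx hx

theorem sqs_normal (hP : P.Normal) : (sqs P).Normal := by
  refine ⟨fun n hn g => ?_⟩
  have h1 : (sqs P).map (MulAut.conj g).toMonoidHom ≤ sqs P := by
    rw [sqs, MonoidHom.map_closure, Subgroup.closure_le]
    rintro _ ⟨_, ⟨x, hx, rfl⟩, rfl⟩
    apply Subgroup.subset_closure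
    refine ⟨g * x * g⁻¹, hP.conj_mem x hx g, ?_⟩
    change g * (x * x) * g⁻¹ = _
    group
  exact h1 ⟨n, hn, rfl⟩

theorem sqs_map {G : Type*} [Group G] (f : Y →* G) : sqs (P.map f) = (sqs P).map f := by
  rw [sqs, sqs, MonoidHom.map_closure]
  congr 1
  ext z
  constructor
  · rintro ⟨_, ⟨x, hx, rfl⟩, rfl⟩
    exact ⟨x * x, ⟨x, hx, rfl⟩, map_mul f x x⟩
  · rintro ⟨_, ⟨x, hx, rfl⟩, rfl⟩
    exact ⟨f x, ⟨x, hx, rfl⟩, map_mul f x x⟩

structure Base (P : Subgroup Y) (φ : Y →* A5) : Prop where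
  ker : φ.ker = P
  surj : Function.Surjective φ
  pgrp : IsPGroup 2 P
  faith : ∀ y, (∀ x ∈ P, y * x * y⁻¹ * x⁻¹ ∈ sqs P) → y ∈ P
  rank : Cfsg.SectionalPRankLE 2 4 Y

variable [Finite Y]

theorem Base.normal (hB : Base P φ) : P.Normal := by rw [← hB.ker]; infer_instance

theorem Base.phi_mem (hB : Base P φ) {g : Y} : g ∈ P ↔ φ g = 1 := by rw [← hB.ker, MonoidHom.mem_ker]

theorem Base.comm_mem (hB : Base P φ) {x y : Y} (hx : x ∈ P) (hy : y ∈ P) : x * y * x⁻¹ * y⁻¹ ∈ sqs P := by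
  have h1 := mem_sqs (P.mul_mem hx hy)
  have h2 := mem_sqs (P.inv_mem hx)
  have h3 := mem_sqs (P.inv_mem hy)
  have h4 : x * y * x⁻¹ * y⁻¹ = ((x * y) * (x * y)) * (y⁻¹ * (x⁻¹ * x⁻¹) * y⁻¹⁻¹) * (y⁻¹ * y⁻¹) := by group
  rw [h4]
  exact (sqs P).mul_mem ((sqs P).mul_mem h1 ((sqs_normal hB.normal).conj_mem _ h2 _)) h3

theorem card_map_mk {N : Subgroup Y} [N.Normal] (hN : N ≤ P) :
    Nat.card (P.map (QuotientGroup.mk' N)) * Nat.card N = Nat.card P := by
  rw [← card_comap_mk, Subgroup.comap_map_eq, QuotientGroup.ker_mk', sup_eq_left.2 hN]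

theorem mk_mem_map {N : Subgroup Y} [N.Normal] (hN : N ≤ P) (y : Y) : (QuotientGroup.mk' N) y ∈ P.map (QuotientGroup.mk' N) ↔ y ∈ P := by
  constructor
  · rintro ⟨x, hx, hxy⟩
    have h1 := QuotientGroup.eq.1 hxy
    have h2 := P.mul_mem hx (hN h1)
    simpa using h2
  · intro h
    exact ⟨y, h, rfl⟩

theorem Base.top (hB : Base P φ) {F : Subgroup Y} [F.Normal] (hF : F = sqs P) (hk : F ≤ φ.ker) :
    Mod5 (P.map (QuotientGroup.mk' F)) (P.map (QuotientGroup.mk' F)) (QuotientGroup.lift F φ hk) := by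
  have hFP : F ≤ P := hF ▸ sqs_le P
  have hcomm : ∀ x ∈ P.map (QuotientGroup.mk' F), ∀ y ∈ P.map (QuotientGroup.mk' F), x * y = y * x := by
    rintro _ ⟨x, hx, rfl⟩ _ ⟨y, hy, rfl⟩
    have h1 := hB.comm_mem hx hy
    rw [← hF] at h1
    have h2 : (QuotientGroup.mk' F) (x * y * x⁻¹ * y⁻¹) = 1 := (QuotientGroup.eq_one_iff _).2 h1
    simp only [map_mul, map_inv] at h2
    rw [mul_inv_eq_one, mul_inv_eq_iff_eq_mul] at h2
    exact h2
  refine ⟨hB.normal.map _ (QuotientGroup.mk'_surjective F), hcomm, ?_, ?_, ?_, ?_, ?_, ?_⟩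
  · rintro _ ⟨x, hx, rfl⟩
    rw [← map_mul]
    exact (QuotientGroup.eq_one_iff _).2 (hF ▸ mem_sqs hx)
  · ext y
    obtain ⟨x, rfl⟩ := QuotientGroup.mk'_surjective F y
    rw [mk_mem_map hFP, MonoidHom.mem_ker, hB.phi_mem]
    rfl
  · intro s
    obtain ⟨y, hy⟩ := hB.surj s
    exact ⟨(QuotientGroup.mk' F) y, hy⟩
  · intro p hp v hv
    rw [hcomm p hp v hv, mul_inv_cancel_right]
  · intro y hy
    obtain ⟨x, rfl⟩ := QuotientGroup.mk'_surjective F y
    rw [mk_mem_map hFP]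
    apply hB.faith
    intro z hz
    rw [← hF, ← QuotientGroup.eq_one_iff]
    have h1 := hy ((QuotientGroup.mk' F) z) ⟨z, hz, rfl⟩
    change (QuotientGroup.mk' F) (x * z * x⁻¹ * z⁻¹) = 1
    simp only [map_mul, map_inv]
    rw [h1, mul_inv_cancel]
  · have h1 := rank_bound hB.rank P F hFP (fun e _ z hz => Subgroup.Normal.conj_mem inferInstance z hz e)
      (fun e he => hF ▸ mem_sqs he)
    have h2 := card_map_mk (P := P) hFP
    have h3 : 0 < Nat.card F := Nat.card_pos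
    rw [← h2] at h1
    exact Nat.le_of_mul_le_mul_right h1 h3

theorem Base.card_P (hB : Base P φ) : Nat.card P = 16 * Nat.card (sqs P) := by
  have hn := sqs_normal hB.normal
  have hk : sqs P ≤ φ.ker := by rw [hB.ker]; exact sqs_le P
  rw [← card_map_mk (sqs_le P), card_V (hB.top rfl hk)]

theorem Base.exists_five (hB : Base P φ) : ∃ c : Y, (φ c) ^ 5 = 1 ∧ φ c ≠ 1 := by
  obtain ⟨c, hc⟩ := hB.surj (t0 * t1)
  exact ⟨c, by rw [hc]; exact t_facts.1, by rw [hc]; exact t_facts.2.1⟩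

theorem Base.irred (hB : Base P φ) {U : Subgroup Y} (hFU : sqs P ≤ U) (hUP : U ≤ P) (c : Y) (hc : (φ c) ^ 5 = 1)
    (hc1 : φ c ≠ 1) (hinv : ∀ u ∈ U, c * u * c⁻¹ ∈ U) : U = sqs P ∨ U = P := by
  have hn := sqs_normal hB.normal
  have hk : sqs P ≤ φ.ker := by rw [hB.ker]; exact sqs_le P
  have h1 := irred_five (hB.top rfl hk) (g := (QuotientGroup.mk' (sqs P)) c) rfl hc hc1 (U := U.map (QuotientGroup.mk' (sqs P)))
    (Subgroup.map_mono hUP) (by
      rintro _ ⟨u, hu, rfl⟩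
      exact ⟨c * u * c⁻¹, hinv u hu, by simp⟩)
  rcases h1 with h1 | h1
  · left
    apply le_antisymm _ hFU
    rw [Subgroup.map_eq_bot_iff, QuotientGroup.ker_mk'] at h1
    exact h1
  · right
    apply le_antisymm hUP
    intro x hx
    have h2 : (QuotientGroup.mk' (sqs P)) x ∈ U.map (QuotientGroup.mk' (sqs P)) := by rw [h1]; exact ⟨x, hx, rfl⟩
    exact (mk_mem_map hFU x).1 h2

theorem inf_centralizer_ne_bot {P N : Subgroup Y} (hP : IsPGroup 2 P) (hN : IsPGroup 2 N)
    (hn : N.Normal) (hne : N ≠ ⊥) :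
    N ⊓ Subgroup.centralizer (P : Set Y) ≠ ⊥ := by
  have : Fact (Nat.Prime 2) := ⟨Nat.prime_two⟩
  let act : MulAction P N :=
    { smul := fun a n => ⟨(a : Y) * n * (a : Y)⁻¹, hn.conj_mem n n.2 a⟩
      one_smul := fun n => Subtype.ext (by
        show ((1 : P) : Y) * n * ((1 : P) : Y)⁻¹ = n
        simp)
      mul_smul := fun a b n => Subtype.ext (by
        show ((a * b : P) : Y) * n * ((a * b : P) : Y)⁻¹ = (a : Y) * ((b : Y) * n * (b : Y)⁻¹) * (a : Y)⁻¹
        push_cast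
        group) }
  have hdvd : 2 ∣ Nat.card N := by
    rcases hN.card_eq_or_dvd with h | h
    · exact absurd (Subgroup.card_eq_one.1 h) hne
    · exact h
  have h1 : (1 : N) ∈ MulAction.fixedPoints P N := by
    intro a
    apply Subtype.ext
    show (a : Y) * ((1 : N) : Y) * (a : Y)⁻¹ = ((1 : N) : Y)
    simp
  obtain ⟨b, hb, hb1⟩ := hP.exists_fixed_point_of_prime_dvd_card_of_fixed_point N hdvd h1
  intro hbot
  apply hb1
  have h2 : (b : Y) ∈ N ⊓ Subgroup.centralizer (P : Set Y) := by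
    refine Subgroup.mem_inf.2 ⟨b.2, ?_⟩
    rw [Subgroup.mem_centralizer_iff]
    intro a ha
    have h3 := congrArg Subtype.val (hb ⟨a, ha⟩)
    change a * b * a⁻¹ = (b : Y) at h3
    rw [mul_inv_eq_iff_eq_mul] at h3
    exact h3
  rw [hbot, Subgroup.mem_bot] at h2
  exact Subtype.ext h2.symm

theorem dichotomy (hB : Base P φ) {N : Subgroup Y} (hN : N.Normal) (hNP : N ≤ P) (hN1 : N ≠ ⊥)
    (hmin : ∀ M : Subgroup Y, M.Normal → M ≤ N → M = ⊥ ∨ M = N) :
    (∀ p ∈ P, ∀ n ∈ N, p * n * p⁻¹ = n) ∧ (∀ x ∈ N, x * x = 1) ∧ (Nat.card N = 2 ∨ Mod5 N P φ) := by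
  have hF2 : Fact (Nat.Prime 2) := ⟨Nat.prime_two⟩
  have hPn := hB.normal
  have hNp : IsPGroup 2 N := hB.pgrp.to_le hNP
  have h1 : N ⊓ Subgroup.centralizer (P : Set Y) = N := by
    have hn : (N ⊓ Subgroup.centralizer (P : Set Y)).Normal := by
      have : (Subgroup.centralizer (P : Set Y)).Normal := inferInstance
      exact Subgroup.normal_inf_normal N (Subgroup.centralizer (P : Set Y))
    exact (hmin _ hn inf_le_left).resolve_left (inf_centralizer_ne_bot hB.pgrp hNp hN hN1)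
  have hcent : ∀ p ∈ P, ∀ n ∈ N, p * n * p⁻¹ = n := by
    intro p hp n hn
    rw [← h1] at hn
    have := Subgroup.mem_centralizer_iff.1 hn.2 p hp
    rw [this, mul_inv_cancel_right]
  have hcomm : ∀ x ∈ N, ∀ y ∈ N, x * y = y * x := by
    intro x hx y hy
    have := hcent x (hNP hx) y hy
    rwa [mul_inv_eq_iff_eq_mul] at this
  let Ω : Subgroup Y :=
    { carrier := {x | x ∈ N ∧ x * x = 1}
      one_mem' := ⟨N.one_mem, one_mul 1⟩
      mul_mem' := by
        rintro a b ⟨ha, ha'⟩ ⟨hb, hb'⟩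
        refine ⟨N.mul_mem ha hb, ?_⟩
        calc a * b * (a * b) = a * (b * a) * b := by group
          _ = a * (a * b) * b := by rw [hcomm a ha b hb]
          _ = (a * a) * (b * b) := by group
          _ = 1 := by rw [ha', hb', one_mul]
      inv_mem' := by
        rintro a ⟨ha, ha'⟩
        refine ⟨N.inv_mem ha, ?_⟩
        rw [← mul_inv_rev, ha', inv_one] }
  have hΩn : Ω.Normal := by
    refine ⟨?_⟩
    rintro x ⟨hx, hx'⟩ g
    refine ⟨hN.conj_mem x hx g, ?_⟩
    calc g * x * g⁻¹ * (g * x * g⁻¹) = g * (x * x) * g⁻¹ := by group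
      _ = 1 := by rw [hx']; group
  have hΩ1 : Ω ≠ ⊥ := by
    have hdvd : 2 ∣ Nat.card N := by
      rcases hNp.card_eq_or_dvd with h | h
      · exact absurd (Subgroup.card_eq_one.1 h) hN1
      · exact h
    obtain ⟨x, hx⟩ := exists_prime_orderOf_dvd_card' 2 hdvd
    intro hbot
    have h2 : (x : Y) ∈ Ω := by
      refine ⟨x.2, ?_⟩
      have h3 : x ^ 2 = 1 := by rw [← hx]; exact pow_orderOf_eq_one x
      rw [pow_two] at h3
      exact congrArg Subtype.val h3
    rw [hbot, Subgroup.mem_bot] at h2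
    rw [show x = 1 from Subtype.ext h2, orderOf_one] at hx
    exact absurd hx (by norm_num)
  have hΩN : Ω = N := (hmin Ω hΩn (fun x hx => hx.1)).resolve_left hΩ1
  have hsq : ∀ x ∈ N, x * x = 1 := by
    intro x hx
    rw [← hΩN] at hx
    exact hx.2
  refine ⟨hcent, hsq, ?_⟩
  have hcard : Nat.card N ≤ 16 := by
    have := rank_bound hB.rank N ⊥ bot_le (by
      intro e _ z hz
      rw [Subgroup.mem_bot] at hz ⊢
      rw [hz]; group) (fun e he => by rw [Subgroup.mem_bot]; exact hsq e he)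
    rwa [Subgroup.card_bot, mul_one] at this
  by_cases hall : ∀ y : Y, ∀ n ∈ N, y * n * y⁻¹ = n
  · left
    obtain ⟨x, hx, hx1⟩ := N.bot_or_exists_ne_one.resolve_left hN1
    have hz : Subgroup.zpowers x = N := by
      refine (hmin _ ?_ (Subgroup.zpowers_le.2 hx)).resolve_left (fun h => hx1 (Subgroup.zpowers_eq_bot.1 h))
      refine ⟨?_⟩
      intro y hy g
      rw [hall g y (Subgroup.zpowers_le.2 hx hy)]
      exact hy
    rw [← hz, Nat.card_zpowers]
    exact orderOf_eq_prime (by rw [pow_two, hsq x hx]) hx1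
  · right
    refine ⟨hN, hcomm, hsq, hB.ker, hB.surj, hcent, ?_, hcard⟩
    let C : Subgroup Y := Subgroup.centralizer (N : Set Y)
    have hCn : C.Normal := inferInstance
    have hCmem : ∀ y, y ∈ C ↔ ∀ n ∈ N, y * n * y⁻¹ = n := by
      intro y
      rw [Subgroup.mem_centralizer_iff]
      constructor
      · intro h n hn
        rw [mul_inv_eq_iff_eq_mul]
        exact (h n hn).symm
      · intro h n hn
        have := h n hn
        rw [mul_inv_eq_iff_eq_mul] at this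
        exact this.symm
    have hPC : P ≤ C := fun p hp => (hCmem p).2 (hcent p hp)
    have hmap : (C.map φ).Normal := hCn.map φ hB.surj
    have hsimple : IsSimpleGroup A5 := alternatingGroup.isSimpleGroup (by simp)
    rcases hmap.eq_bot_or_eq_top with h2 | h2
    · intro y hy
      rw [← hB.ker]
      have h3 : y ∈ C := (hCmem y).2 hy
      have h4 : φ y ∈ C.map φ := ⟨y, h3, rfl⟩
      rw [h2, Subgroup.mem_bot] at h4
      exact h4
    · exfalso
      apply hall
      intro y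
      rw [← hCmem]
      have h3 : φ y ∈ C.map φ := by rw [h2]; trivial
      obtain ⟨x, hx, hxy⟩ := h3
      have h4 : x⁻¹ * y ∈ P := by
        rw [hB.phi_mem, map_mul, map_inv, hxy, inv_mul_cancel]
      have h5 := C.mul_mem hx (hPC h4)
      simpa using h5

theorem Base.quot (hB : Base P φ) {N : Subgroup Y} [N.Normal] (hN : N ≤ sqs P) (hk : N ≤ φ.ker) :
    Base (P.map (QuotientGroup.mk' N)) (QuotientGroup.lift N φ hk) := by
  have hNP : N ≤ P := hN.trans (sqs_le P)
  refine ⟨?_, ?_, hB.pgrp.map _, ?_, Cfsg.Agent.H73.Sec.quot hB.rank N⟩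
  · ext y
    obtain ⟨x, rfl⟩ := QuotientGroup.mk'_surjective N y
    rw [mk_mem_map hNP, MonoidHom.mem_ker, hB.phi_mem]
    rfl
  · intro s
    obtain ⟨y, hy⟩ := hB.surj s
    exact ⟨(QuotientGroup.mk' N) y, hy⟩
  · intro y hy
    obtain ⟨x, rfl⟩ := QuotientGroup.mk'_surjective N y
    rw [mk_mem_map hNP]
    apply hB.faith
    intro z hz
    have h1 := hy ((QuotientGroup.mk' N) z) ⟨z, hz, rfl⟩
    rw [sqs_map, ← map_inv, ← map_inv, ← map_mul, ← map_mul, ← map_mul, mk_mem_map hN] at h1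
    exact h1

/-- `Φ(P)` is not a faithful chief factor -/
theorem card_of_min (hB : Base P φ) (hF1 : sqs P ≠ ⊥)
    (hmin : ∀ M : Subgroup Y, M.Normal → M ≤ sqs P → M = ⊥ ∨ M = sqs P) : Nat.card (sqs P) = 2 := by
  have hn := sqs_normal hB.normal
  have hk : sqs P ≤ φ.ker := by rw [hB.ker]; exact sqs_le P
  obtain ⟨h1, h2, h3⟩ := dichotomy hB hn (sqs_le P) hF1 hmin
  rcases h3 with h3 | h3
  · exact h3
  · exact (no_double h3 (sqs_le P) _ (fun y => rfl) (hB.top rfl hk) hB.rank).elim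

/-- case (b) -/
theorem no_b (hB : Base P φ) {N : Subgroup Y} (hN : Mod5 N P φ) (hNF : N ≤ sqs P) (hc : Nat.card (sqs P) = 2 * Nat.card N) : False := by
  have hFn := sqs_normal hB.normal
  have hFP := sqs_le P
  have hN16 := card_V hN
  obtain ⟨c, hc5, hc1⟩ := hB.exists_five
  have hcv := (cv_five hN (g := c) rfl hc5 hc1).2
  have hi : (N.subgroupOf (sqs P)).index = 2 := by
    have h1 := (N.subgroupOf (sqs P)).card_mul_index
    rw [Nat.card_congr (Subgroup.subgroupOfEquivOfLe hNF).toEquiv, hc, hN16] at h1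
    omega
  have hcomm : ∀ n ∈ N, ∀ p ∈ P, n * p = p * n := by
    intro n hn p hp
    have := hN.cent p hp n hn
    rw [mul_inv_eq_iff_eq_mul] at this
    exact this.symm
  have hmul : ∀ x ∈ sqs P, x ∉ N → ∀ y ∈ sqs P, y ∉ N → x * y ∈ N := by
    intro x hx hxN y hy hyN
    have := Subgroup.mul_mem_iff_of_index_two hi (a := ⟨x, hx⟩) (b := ⟨y, hy⟩)
    simp only [Subgroup.mem_subgroupOf] at this
    exact this.2 (by tauto)
  have hsqN : ∀ x ∈ sqs P, x * x ∈ N := by
    intro x hx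
    by_cases hxN : x ∈ N
    · exact N.mul_mem hxN hxN
    · exact hmul x hx hxN x hx hxN
  have hsq : ∀ x ∈ sqs P, x * x = 1 := by
    intro x hx
    by_cases hxN : x ∈ N
    · exact hN.sq x hxN
    have h1 : x * x ∈ cv N c := by
      refine ⟨hsqN x hx, ?_⟩
      have h2 : c * x * c⁻¹ ∈ sqs P := hFn.conj_mem x hx c
      have h3 : c * x * c⁻¹ ∉ N := by
        intro h
        have := hN.conj_mem h c⁻¹
        apply hxN
        have h4 : c⁻¹ * (c * x * c⁻¹) * c⁻¹⁻¹ = x := by group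
        rwa [h4] at this
      have hxi : x⁻¹ ∉ N := fun h => hxN (by simpa using N.inv_mem h)
      have h5 := hmul x⁻¹ ((sqs P).inv_mem hx) hxi _ h2 h3
      set n := x⁻¹ * (c * x * c⁻¹) with hn
      have h6 : c * x * c⁻¹ = x * n := by rw [hn]; group
      calc c * (x * x) * c⁻¹ = (c * x * c⁻¹) * (c * x * c⁻¹) := by group
        _ = (x * n) * (x * n) := by rw [h6]
        _ = x * (n * x) * n := by group
        _ = x * (x * n) * n := by rw [hcomm n h5 x (hFP hx)]
        _ = (x * x) * (n * n) := by group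
        _ = x * x := by rw [hN.sq n h5, mul_one]
    rw [hcv, Subgroup.mem_bot] at h1
    exact h1
  have := rank_bound hB.rank (sqs P) ⊥ bot_le (by
      intro e _ z hz
      rw [Subgroup.mem_bot] at hz ⊢
      rw [hz]; group) (fun e he => by rw [Subgroup.mem_bot]; exact hsq e he)
  rw [Subgroup.card_bot, mul_one, hc, hN16] at this
  omega

end Cfsg.Agent.H38.SA5
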