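import Mathlib
import Cfsg.Agent.H38.SA5C

set_option autoImplicit false
set_option linter.unusedSectionVars false
set_option linter.unusedVariables false

/-! Klein four subgroups of `A₅` acting on a module. -/

namespace Cfsg.Agent.H38.SA5

open Equiv
open Cfsg.Agent.H38.SR4 (cv mem_cv cv_le)

variable {Y : Type*} [Group Y] [Finite Y] {V P : Subgroup Y} {φ : Y →* A5}

theorem modEq_p (h : Mod5 V P φ) {p : ℕ} (hp : p.Prime) {g : Y} (hs : (φ g) ^ p = 1) {U : Subgroup Y}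
    (hU : U ≤ V) (hinv : ∀ u ∈ U, g * u * g⁻¹ ∈ U) : Nat.card U ≡ Nat.card (cv U g) [MOD p] := by
  classical
  have hp : Fact (Nat.Prime p) := ⟨hp⟩
  have : Fintype U := Fintype.ofFinite _
  let f : Function.End U := fun v => ⟨g * v * g⁻¹, hinv v v.2⟩
  have hf0 : ∀ n : ℕ, ∀ v : U, ((f ^ n) v : Y) = g ^ n * v * (g ^ n)⁻¹ := by
    intro n
    induction n with
    | zero =>
      intro v
      change (v : Y) = g ^ 0 * v * (g ^ 0)⁻¹
      simp
    | succ n ih =>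
      intro v
      rw [pow_succ']
      change g * ((f ^ n) v : Y) * g⁻¹ = _
      rw [ih, pow_succ']
      group
  have hg5 : g ^ p ∈ P := by rw [h.phi_mem, map_pow, hs]
  have hf : f ^ p ^ 1 = 1 := by
    funext v
    apply Subtype.ext
    rw [pow_one, hf0, h.cent _ hg5 _ (hU v.2)]
    rfl
  have h1 := Equiv.Perm.card_fixedPoints_modEq hf
  have h2 : Fintype.card (Function.fixedPoints f) = Nat.card (cv U g) := by
    rw [← Nat.card_eq_fintype_card]
    refine Nat.card_congr ⟨fun x => ⟨x.1, x.1.2, congrArg Subtype.val (show f x.1 = x.1 from x.2)⟩,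
      fun x => ⟨⟨x.1, x.2.1⟩, Subtype.ext x.2.2⟩, fun _ => rfl, fun _ => rfl⟩
  rw [h2, ← Nat.card_eq_fintype_card] at h1
  exact h1

def s1 : A5 := ⟨swap 0 1 * swap 2 3, by rw [Equiv.Perm.mem_alternatingGroup]; decide +kernel⟩
def s2 : A5 := ⟨swap 0 2 * swap 1 3, by rw [Equiv.Perm.mem_alternatingGroup]; decide +kernel⟩
def sd : A5 := ⟨swap 0 1 * swap 1 2, by rw [Equiv.Perm.mem_alternatingGroup]; decide +kernel⟩
def se : A5 := ⟨swap 3 4 * swap 0 1, by rw [Equiv.Perm.mem_alternatingGroup]; decide +kernel⟩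

theorem s_conj : (∃ r : A5, r * t0 * r⁻¹ = s1) ∧ (∃ r : A5, r * t0 * r⁻¹ = s2) ∧ (∃ r : A5, r * t0 * r⁻¹ = s1 * s2) := by
  refine ⟨⟨⟨swap 0 1 * swap 0 4 * (swap 2 0 * swap 2 0), ?_⟩, ?_⟩, ⟨⟨swap 0 4 * swap 1 2, ?_⟩, ?_⟩, ⟨⟨swap 0 4 * swap 1 3, ?_⟩, ?_⟩⟩ <;>
  first
  | (rw [Equiv.Perm.mem_alternatingGroup]; decide +kernel)
  | decide +kernel

theorem s_rel : s1 * s2 = s2 * s1 ∧ sd ^ 3 = 1 ∧ sd ≠ 1 ∧ sd * s1 * sd⁻¹ = s1 * s2 ∧ se * sd * se⁻¹ = sd⁻¹ ∧
    (s1 * (se * (s1 * s2) * se⁻¹)) ^ 5 = 1 ∧ s1 * (se * (s1 * s2) * se⁻¹) ≠ 1 := by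
  refine ⟨?_, ?_, ?_, ?_, ?_, ?_, ?_⟩ <;> decide +kernel

/-- the situation in which the three involutions of a four group have the same fixed points -/
theorem klein (h : Mod5 V P φ) {a1 a3 d e : Y} (h1 : φ a1 = s1) (h3 : φ a3 = s1 * s2)
    (hd : φ d = sd) (he : φ e = se) (hU : cv V a1 = cv V a3) :
    (∀ u ∈ cv V a1, d * u * d⁻¹ ∈ cv V a1) ∧
    (∀ u ∈ cv V a1, u * (d * u * d⁻¹) * (d * d * u * (d * d)⁻¹) = 1) ∧
    (∀ u ∈ cv V a1, e * u * e⁻¹ ∈ cv V a1 → u = 1) := by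
  obtain ⟨-, hd3, hd1, hds, hes, h5, h51⟩ := s_rel
  obtain ⟨hc1, -, hc3⟩ := s_conj
  have hUd : ∀ u ∈ cv V a1, d * u * d⁻¹ ∈ cv V a1 := by
    intro u hu
    rw [hU]
    have h4 : φ (d * a1 * d⁻¹) = φ a3 := by rw [map_mul, map_mul, map_inv, hd, h1, h3, hds]
    rw [h.cv_eq h4, h.cv_conj]
    exact ⟨u, hu, rfl⟩
  have hU4 := (cv_t h h1 hc1).1
  -- intersection with the conjugate
  have hint : ∀ u ∈ cv V a1, e * u * e⁻¹ ∈ cv V a1 → u = 1 := by
    intro u hu hu'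
    have h4 : e * u * e⁻¹ ∈ cv V (e * a3 * e⁻¹) := by
      rw [h.cv_conj]
      exact ⟨u, hU ▸ hu, rfl⟩
    have h6 : e * u * e⁻¹ ∈ cv V (a1 * (e * a3 * e⁻¹)) := by
      refine ⟨hu'.1, ?_⟩
      have h7 := h4.2
      have h8 := hu'.2
      set w := e * u * e⁻¹
      set b := e * a3 * e⁻¹
      calc a1 * b * w * (a1 * b)⁻¹ = a1 * (b * w * b⁻¹) * a1⁻¹ := by group
        _ = w := by rw [h7, h8]
    have h9 := (cv_five h (g := a1 * (e * a3 * e⁻¹)) (s := s1 * (se * (s1 * s2) * se⁻¹))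
      (by simp only [map_mul, map_inv, h1, h3, he]) h5 h51).2
    rw [h9, Subgroup.mem_bot] at h6
    have : u = e⁻¹ * (e * u * e⁻¹) * e := by group
    rw [this, h6]; group
  refine ⟨hUd, ?_, hint⟩
  -- fixed points of `d` on `U`
  have hmod := modEq_p h Nat.prime_three (g := d) (by rw [hd]; exact hd3) (cv_le a1) hUd
  obtain ⟨b, hb, hcb⟩ := card_pow h (cv (cv V a1) d) ((cv_le d).trans (cv_le a1))
  have hb2 : b ≤ 2 := by
    have := Nat.le_of_dvd Nat.card_pos (Subgroup.card_dvd_of_le (cv_le (V := cv V a1) d))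
    rw [hU4, hcb] at this
    exact (Nat.pow_le_pow_iff_right (by norm_num : 1 < 2)).1 this
  rw [hU4, hcb] at hmod
  have hb' : b = 0 ∨ b = 2 := by
    interval_cases b
    · exact Or.inl rfl
    · revert hmod; decide
    · exact Or.inr rfl
  have hbot : cv (cv V a1) d = ⊥ := by
    rcases hb' with rfl | rfl
    · exact Subgroup.card_eq_one.1 hcb
    · exfalso
      have h4 : cv (cv V a1) d = cv V a1 := Subgroup.eq_of_le_of_card_ge (cv_le d) (by rw [hcb, hU4]; norm_num)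
      have h5 : ∀ u ∈ cv V a1, d * u * d⁻¹ = u := by
        intro u hu
        rw [← h4] at hu
        exact hu.2
      let U' : Subgroup Y := (cv V a1).map (MulAut.conj e).toMonoidHom
      have hU'mem : ∀ w ∈ U', ∃ u ∈ cv V a1, w = e * u * e⁻¹ := by
        rintro _ ⟨u, hu, rfl⟩
        exact ⟨u, hu, rfl⟩
      have hdis : Disjoint (cv V a1) U' := by
        rw [Subgroup.disjoint_def]
        intro x hx hx'
        obtain ⟨u, hu, rfl⟩ := hU'mem x hx'
        rw [hint u hu hx]; group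
      have hU'd : ∀ w ∈ U', d * w * d⁻¹ = w := by
        intro w hw
        obtain ⟨u, hu, rfl⟩ := hU'mem w hw
        have h6 : φ (e * d * e⁻¹) = φ d⁻¹ := by
          simp only [map_mul, map_inv, hd, he, hes]
        have h7 := h.conj_eq h6 (h.conj_mem hu.1 e)
        have h8 : e * d * e⁻¹ * (e * u * e⁻¹) * (e * d * e⁻¹)⁻¹ = e * u * e⁻¹ := by
          calc e * d * e⁻¹ * (e * u * e⁻¹) * (e * d * e⁻¹)⁻¹ = e * (d * u * d⁻¹) * e⁻¹ := by group
            _ = e * u * e⁻¹ := by rw [h5 u hu]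
        rw [h8] at h7
        calc d * (e * u * e⁻¹) * d⁻¹ = d * (d⁻¹ * (e * u * e⁻¹) * d⁻¹⁻¹) * d⁻¹ := by rw [h7]
          _ = e * u * e⁻¹ := by group
      have hU'V : U' ≤ V := by
        intro w hw
        obtain ⟨u, hu, rfl⟩ := hU'mem w hw
        exact h.conj_mem hu.1 e
      have hinj := Subgroup.mul_injective_of_disjoint hdis
      have hge : 16 ≤ Nat.card (cv V d) := by
        have h6 : Nat.card (cv V a1 × U') = 16 := by
          rw [Nat.card_prod, hU4]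
          have : Nat.card U' = Nat.card (cv V a1) := Subgroup.card_map_of_injective (MulAut.conj e).injective
          rw [this, hU4]
        rw [← h6]
        refine Nat.card_le_card_of_injective (fun x => (⟨(x.1 : Y) * x.2, V.mul_mem x.1.2.1 (hU'V x.2.2), ?_⟩ : cv V d)) ?_
        · calc d * ((x.1 : Y) * x.2) * d⁻¹ = (d * x.1 * d⁻¹) * (d * x.2 * d⁻¹) := by group
            _ = x.1 * x.2 := by rw [h5 _ x.1.2, hU'd _ x.2.2]
        · intro x y hxy
          exact hinj (congrArg Subtype.val hxy)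
      have h7 : cv V d = V := Subgroup.eq_of_le_of_card_ge (cv_le d) (by rw [card_V h]; exact hge)
      have h8 : d ∈ P := h.faith d (fun v hv => by rw [← h7] at hv; exact hv.2)
      rw [h.phi_mem, hd] at h8
      exact hd1 h8
  intro u hu
  have hu1 := hUd u hu
  have hu2 := hUd _ hu1
  have e2 : d * (d * u * d⁻¹) * d⁻¹ = d * d * u * (d * d)⁻¹ := by group
  rw [e2] at hu2
  have hN : u * (d * u * d⁻¹) * (d * d * u * (d * d)⁻¹) ∈ cv (cv V a1) d := by
    refine ⟨(cv V a1).mul_mem ((cv V a1).mul_mem hu hu1) hu2, ?_⟩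
    have hd3P : (d * d * d) ∈ P := by
      rw [h.phi_mem]
      simp only [map_mul, hd]
      rw [← hd3]
      simp only [pow_succ, pow_zero, one_mul]
    have h6 := h.cent _ hd3P u hu.1
    have h7 : d * (u * (d * u * d⁻¹) * (d * d * u * (d * d)⁻¹)) * d⁻¹ = (d * u * d⁻¹) * (d * d * u * (d * d)⁻¹) * (d * d * d * u * (d * d * d)⁻¹) := by
      group
    rw [h7, h6]
    have h8 := h.comm u hu.1 _ (V.mul_mem hu1.1 hu2.1)
    rw [← h8]; group
  rw [hbot, Subgroup.mem_bot] at hN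
  exact hN

end Cfsg.Agent.H38.SA5
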