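import Mathlib
import Cfsg.Agent.H38.SA5D

set_option autoImplicit false
set_option linter.unusedSectionVars false
set_option linter.unusedVariables false

/-! `Φ(P)` of order 4 is impossible. -/

namespace Cfsg.Agent.H38.SA5

open Equiv
open Cfsg.Agent.H38.SR4 (cv mem_cv cv_le)

variable {Y : Type*} [Group Y] [Finite Y] {P : Subgroup Y} {φ : Y →* A5}

/-- conjugation action on the nonidentity elements of a normal subgroup -/
def psiY (F : Subgroup Y) (hF : F.Normal) : Y →* Perm {w : Y // w ∈ F ∧ w ≠ 1} where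
  toFun y :=
    { toFun := fun w => ⟨y * w * (y : Y)⁻¹, hF.conj_mem _ w.2.1 y, fun h => w.2.2 (by rwa [mul_inv_eq_one, mul_eq_left] at h)⟩
      invFun := fun w => ⟨(y : Y)⁻¹ * w * y, by
        have := hF.conj_mem _ w.2.1 y⁻¹
        rwa [inv_inv] at this, fun h => w.2.2 (by
          rw [mul_assoc, inv_mul_eq_one, eq_comm, mul_eq_right] at h
          exact h)⟩
      left_inv := fun w => Subtype.ext (by change (y : Y)⁻¹ * (y * w * (y : Y)⁻¹) * y = w; group)
      right_inv := fun w => Subtype.ext (by change (y : Y) * ((y : Y)⁻¹ * w * y) * (y : Y)⁻¹ = w; group) }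
  map_one' := by ext w; change (1 : Y) * w * (1 : Y)⁻¹ = w; group
  map_mul' := by
    intro a b
    ext w
    change ((a : Y) * b) * w * ((a : Y) * b)⁻¹ = a * (b * w * (b : Y)⁻¹) * (a : Y)⁻¹
    group

theorem card_A5 : Nat.card A5 = 60 := by
  rw [nat_card_alternatingGroup, Nat.card_eq_fintype_card, Fintype.card_fin]; rfl

theorem F_central (hB : Base P φ) (h4 : Nat.card (sqs P) = 4) : ∀ y : Y, ∀ f ∈ sqs P, y * f * y⁻¹ = f := by
  have hFn := sqs_normal hB.normal
  have hPn := hB.normal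
  let C : Subgroup Y := Subgroup.centralizer (sqs P : Set Y)
  have hCn : C.Normal := inferInstance
  have hCmem : ∀ y, y ∈ C ↔ ∀ n ∈ sqs P, y * n * y⁻¹ = n := by
    intro y
    rw [Subgroup.mem_centralizer_iff]
    constructor
    · intro h n hn
      rw [mul_inv_eq_iff_eq_mul]
      exact (h n hn).symm
    · intro h n hn
      have := h n hn
      rw [mul_inv_eq_iff_eq_mul] at this
      exact this.symm
  have hker : (psiY (sqs P) hFn).ker = C := by
    ext y
    rw [MonoidHom.mem_ker, hCmem]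
    constructor
    · intro h n hn
      by_cases hn1 : n = 1
      · subst hn1; group
      · exact congrArg (fun z : Perm {w : Y // w ∈ sqs P ∧ w ≠ 1} => ((z ⟨n, hn, hn1⟩ : {w : Y // w ∈ sqs P ∧ w ≠ 1}) : Y)) h
    · intro h
      ext w
      exact h w w.2.1
  have hX3 : Nat.card {w : Y // w ∈ sqs P ∧ w ≠ 1} = 3 := by
    classical
    have : Fintype (sqs P) := Fintype.ofFinite _
    have h1 : Nat.card {w : sqs P // w ≠ 1} = 3 := by
      rw [Nat.card_eq_fintype_card, Fintype.card_subtype_compl, Fintype.card_subtype_eq, ← Nat.card_eq_fintype_card, h4]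
    rw [← h1]
    exact Nat.card_congr ⟨fun x => ⟨⟨x.1, x.2.1⟩, fun h => x.2.2 (congrArg Subtype.val h)⟩,
      fun x => ⟨x.1, x.1.2, fun h => x.2 (Subtype.ext h)⟩, fun _ => rfl, fun _ => rfl⟩
  have hC6 : C.index ∣ 6 := by
    rw [← hker, Subgroup.index_ker]
    have h2 := (psiY (sqs P) hFn).range.card_subgroup_dvd_card
    rw [Nat.card_perm, hX3] at h2
    exact h2
  have hCle : C.index ≤ 6 := Nat.le_of_dvd (by norm_num) hC6
  have hPi : P.index = 60 := by
    rw [← hB.ker, Subgroup.index_ker, MonoidHom.range_eq_top.2 hB.surj, Subgroup.card_top, card_A5]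
  have hsimple : IsSimpleGroup A5 := alternatingGroup.isSimpleGroup (by simp)
  have hmap : (C.map φ).Normal := hCn.map φ hB.surj
  rcases hmap.eq_bot_or_eq_top with h2 | h2
  · exfalso
    have h3 : C ≤ P := by
      intro y hy
      rw [hB.phi_mem]
      have h4 : φ y ∈ C.map φ := ⟨y, hy, rfl⟩
      rwa [h2, Subgroup.mem_bot] at h4
    have h5 := Subgroup.index_dvd_of_le h3
    rw [hPi] at h5
    have h6 := h5.trans hC6
    revert h6; decide
  · obtain ⟨c, hc5, hc1⟩ := hB.exists_five
    have hFU : sqs P ≤ P ⊓ C := by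
      refine le_inf (sqs_le P) ?_
      intro f hf
      rw [hCmem]
      intro n hn
      have : IsMulCommutative (sqs P) := by
        have hF2 : Fact (Nat.Prime 2) := ⟨Nat.prime_two⟩
        exact IsPGroup.isMulCommutative_of_card_eq_prime_sq (p := 2) (by rw [h4]; norm_num)
      have h5 := this.is_comm.comm (⟨f, hf⟩ : sqs P) ⟨n, hn⟩
      have h6 : f * n = n * f := congrArg Subtype.val h5
      rw [h6, mul_inv_cancel_right]
    have hUn : (P ⊓ C).Normal := Subgroup.normal_inf_normal P C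
    have h5 := hB.irred hFU inf_le_left c hc5 hc1 (fun u hu => hUn.conj_mem u hu c)
    have hPC : P ≤ C := by
      rcases h5 with h5 | h5
      · exfalso
        have h6 : C.relIndex P ∣ C.index := Subgroup.relIndex_dvd_index_of_normal C P
        have h7 : C.relIndex P ≤ 6 := (Nat.le_of_dvd (Nat.pos_of_ne_zero Subgroup.index_ne_zero_of_finite) h6).trans hCle
        have h8 := (C.subgroupOf P).card_mul_index
        have h9 : Nat.card (C.subgroupOf P) = Nat.card (P ⊓ C : Subgroup Y) := by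
          rw [← Subgroup.inf_subgroupOf_left, Nat.card_congr (Subgroup.subgroupOfEquivOfLe inf_le_left).toEquiv]
        rw [h9, h5, h4, hB.card_P, h4] at h8
        change 4 * C.relIndex P = 16 * 4 at h8
        omega
      · rw [← h5]; exact inf_le_right
    intro y
    rw [← hCmem]
    have h3 : φ y ∈ C.map φ := by rw [h2]; trivial
    obtain ⟨x, hx, hxy⟩ := h3
    have h4 : x⁻¹ * y ∈ P := by
      rw [hB.phi_mem, map_mul, map_inv, hxy, inv_mul_cancel]
    have h5 := C.mul_mem hx (hPC h4)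
    simpa using h5

/-- commutators are not contained in a subgroup of order 2 of the central subgroup `Φ(P)` -/
theorem comm_not_in (hB : Base P φ) (h4 : Nat.card (sqs P) = 4) (hc : ∀ y : Y, ∀ f ∈ sqs P, y * f * y⁻¹ = f)
    {F₀ : Subgroup Y} (hF₀ : F₀ ≤ sqs P) (h2 : Nat.card F₀ = 2) : ¬ ∀ x ∈ P, ∀ y ∈ P, x * y * x⁻¹ * y⁻¹ ∈ F₀ := by
  intro hcm
  have hcF : ∀ f ∈ sqs P, ∀ y : Y, y * f = f * y := by
    intro f hf y
    have := hc y f hf
    rwa [mul_inv_eq_iff_eq_mul] at this
  have hi : (F₀.subgroupOf (sqs P)).index = 2 := by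
    have h1 := (F₀.subgroupOf (sqs P)).card_mul_index
    rw [Nat.card_congr (Subgroup.subgroupOfEquivOfLe hF₀).toEquiv, h2, h4] at h1
    omega
  have hmul : ∀ x ∈ sqs P, x ∉ F₀ → ∀ y ∈ sqs P, y ∉ F₀ → x * y ∈ F₀ := by
    intro x hx hxN y hy hyN
    have := Subgroup.mul_mem_iff_of_index_two hi (a := ⟨x, hx⟩) (b := ⟨y, hy⟩)
    simp only [Subgroup.mem_subgroupOf] at this
    exact this.2 (by tauto)
  have hsqmul : ∀ x ∈ P, ∀ y ∈ P, ∃ k ∈ F₀, (x * y) * (x * y) = k * ((x * x) * (y * y)) := by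
    intro x hx y hy
    refine ⟨y * x * y⁻¹ * x⁻¹, hcm y hy x hx, ?_⟩
    have h5 := hcF _ (hF₀ (hcm y hy x hx)) x
    set k := y * x * y⁻¹ * x⁻¹ with hk
    have h6 : y * x = k * x * y := by rw [hk]; group
    calc (x * y) * (x * y) = x * (y * x) * y := by group
      _ = x * (k * x * y) * y := by rw [h6]
      _ = (x * k) * (x * y * y) := by group
      _ = (k * x) * (x * y * y) := by rw [h5]
      _ = k * ((x * x) * (y * y)) := by group
  let K : Subgroup Y :=
    { carrier := {x | x ∈ P ∧ x * x ∈ F₀}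
      one_mem' := ⟨P.one_mem, by rw [one_mul]; exact F₀.one_mem⟩
      mul_mem' := by
        rintro a b ⟨ha, ha'⟩ ⟨hb, hb'⟩
        refine ⟨P.mul_mem ha hb, ?_⟩
        obtain ⟨k, hk, h5⟩ := hsqmul a ha b hb
        rw [h5]
        exact F₀.mul_mem hk (F₀.mul_mem ha' hb')
      inv_mem' := by
        rintro a ⟨ha, ha'⟩
        refine ⟨P.inv_mem ha, ?_⟩
        rw [← mul_inv_rev]
        exact F₀.inv_mem ha' }
  have hKmem : ∀ x, x ∈ K ↔ x ∈ P ∧ x * x ∈ F₀ := fun x => Iff.rfl
  have hFK : sqs P ≤ K := by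
    intro f hf
    rw [hKmem]
    refine ⟨sqs_le P hf, ?_⟩
    by_cases hf0 : f ∈ F₀
    · exact F₀.mul_mem hf0 hf0
    · exact hmul f hf hf0 f hf hf0
  obtain ⟨c, hc5, hc1⟩ := hB.exists_five
  have h5 := hB.irred hFK (fun x hx => hx.1) c hc5 hc1 (by
    rintro u ⟨hu, hu'⟩
    refine ⟨hB.normal.conj_mem u hu c, ?_⟩
    have h6 : c * u * c⁻¹ * (c * u * c⁻¹) = c * (u * u) * c⁻¹ := by group
    rw [h6, hc c _ (hF₀ hu')]
    exact hu')
  rcases h5 with h5 | h5
  · -- `P` would be small
    have hP : Nat.card P = 64 := by rw [hB.card_P, h4]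
    obtain ⟨x, hx, hxF⟩ : ∃ x ∈ P, x ∉ sqs P := by
      by_contra hcon
      push Not at hcon
      have := Nat.card_le_card_of_injective _ (Subgroup.inclusion_injective (show P ≤ sqs P from hcon))
      omega
    have hxy : ∀ y ∈ P, y ∉ sqs P → x * y ∈ sqs P := by
      intro y hy hyF
      rw [← h5, hKmem]
      refine ⟨P.mul_mem hx hy, ?_⟩
      obtain ⟨k, hk, h6⟩ := hsqmul x hx y hy
      rw [h6]
      refine F₀.mul_mem hk (hmul _ (mem_sqs hx) ?_ _ (mem_sqs hy) ?_)
      · intro h7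
        exact hxF (h5 ▸ ⟨hx, h7⟩)
      · intro h7
        exact hyF (h5 ▸ ⟨hy, h7⟩)
    classical
    let f : P → sqs P ⊕ sqs P := fun y => if hy : (y : Y) ∈ sqs P then Sum.inl ⟨y, hy⟩ else Sum.inr ⟨x * y, hxy y y.2 hy⟩
    have hf : Function.Injective f := by
      intro a b hab
      by_cases ha : (a : Y) ∈ sqs P <;> by_cases hb : (b : Y) ∈ sqs P
      · simp only [f, dif_pos ha, dif_pos hb, Sum.inl.injEq, Subtype.mk.injEq] at hab
        exact Subtype.ext hab
      · simp [f, dif_pos ha, dif_neg hb] at hab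
      · simp [f, dif_neg ha, dif_pos hb] at hab
      · simp only [f, dif_neg ha, dif_neg hb, Sum.inr.injEq, Subtype.mk.injEq] at hab
        exact Subtype.ext (mul_left_cancel hab)
    have h6 := Nat.card_le_card_of_injective f hf
    rw [Nat.card_sum, h4, hP] at h6
    omega
  · have h6 : sqs P ≤ F₀ := by
      rw [sqs, Subgroup.closure_le]
      rintro _ ⟨x, hx, rfl⟩
      rw [← h5] at hx
      exact hx.2
    have := Nat.card_le_card_of_injective _ (Subgroup.inclusion_injective h6)
    omega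

end Cfsg.Agent.H38.SA5
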