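import Mathlib
import Cfsg.Agent.H38.SA5E

set_option autoImplicit false
set_option linter.unusedSectionVars false
set_option linter.unusedVariables false

/-! `Φ(P)` of order 4 is impossible, second part. -/

namespace Cfsg.Agent.H38.SA5

open Equiv
open Cfsg.Agent.H38.SR4 (cv mem_cv cv_le)

variable {Y : Type*} [Group Y] [Finite Y] {P : Subgroup Y} {φ : Y →* A5}

theorem F_exp (hB : Base P φ) (h4 : Nat.card (sqs P) = 4) (hc : ∀ y : Y, ∀ f ∈ sqs P, y * f * y⁻¹ = f) :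
    ∀ f ∈ sqs P, f * f = 1 := by
  have hcF : ∀ f ∈ sqs P, ∀ y : Y, y * f = f * y := by
    intro f hf y
    have := hc y f hf
    rwa [mul_inv_eq_iff_eq_mul] at this
  have hcsq : ∀ x ∈ P, ∀ y ∈ P, (x * y * x⁻¹ * y⁻¹) * (x * y * x⁻¹ * y⁻¹) = 1 := by
    intro x hx y hy
    have h5 := hcF _ (hB.comm_mem hx hy) x
    have h6 := hcF _ (mem_sqs hx) y
    set k := x * y * x⁻¹ * y⁻¹ with hk
    have h7 : x * y * x⁻¹ = k * y := by rw [hk]; group
    have h8 : (x * x) * y * (x * x)⁻¹ = k * k * y := by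
      calc (x * x) * y * (x * x)⁻¹ = x * (x * y * x⁻¹) * x⁻¹ := by group
        _ = x * (k * y) * x⁻¹ := by rw [h7]
        _ = (x * k) * y * x⁻¹ := by group
        _ = (k * x) * y * x⁻¹ := by rw [h5]
        _ = k * (x * y * x⁻¹) := by group
        _ = k * k * y := by rw [h7]; group
    rw [← h6, mul_inv_cancel_right, eq_comm, mul_eq_right] at h8
    exact h8
  by_contra hcon
  push Not at hcon
  obtain ⟨f, hf, hff⟩ := hcon
  let Ω : Subgroup Y :=
    { carrier := {x | x ∈ sqs P ∧ x * x = 1}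
      one_mem' := ⟨(sqs P).one_mem, one_mul 1⟩
      mul_mem' := by
        rintro a b ⟨ha, ha'⟩ ⟨hb, hb'⟩
        refine ⟨(sqs P).mul_mem ha hb, ?_⟩
        calc a * b * (a * b) = a * (b * a) * b := by group
          _ = a * (a * b) * b := by rw [hcF a ha b]
          _ = (a * a) * (b * b) := by group
          _ = 1 := by rw [ha', hb', one_mul]
      inv_mem' := by
        rintro a ⟨ha, ha'⟩
        refine ⟨(sqs P).inv_mem ha, ?_⟩
        rw [← mul_inv_rev, ha', inv_one] }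
  have hΩF : Ω ≤ sqs P := fun x hx => hx.1
  have hd : Nat.card Ω ∣ 2 ^ 2 := by
    have := Subgroup.card_dvd_of_le hΩF
    rw [h4] at this
    exact this
  obtain ⟨k, hk, hΩk⟩ := (Nat.dvd_prime_pow Nat.prime_two).1 hd
  have hk2 : k ≠ 2 := by
    rintro rfl
    have := Subgroup.eq_of_le_of_card_ge hΩF (by rw [hΩk, h4]; norm_num)
    rw [← this] at hf
    exact hff hf.2
  have hk0 : k ≠ 0 := by
    rintro rfl
    have h5 : Ω = ⊥ := Subgroup.card_eq_one.1 hΩk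
    have h6 : f * f ∈ Ω := by
      refine ⟨(sqs P).mul_mem hf hf, ?_⟩
      have h7 : (⟨f, hf⟩ : sqs P) ^ Nat.card (sqs P) = 1 := pow_card_eq_one'
      rw [h4] at h7
      have h8 : f ^ 4 = 1 := congrArg Subtype.val h7
      rw [← h8]
      simp only [pow_succ, pow_zero, one_mul, mul_assoc]
    rw [h5, Subgroup.mem_bot] at h6
    exact hff h6
  have hk1 : k = 1 := by omega
  subst hk1
  exact comm_not_in hB h4 hc hΩF hΩk (fun x hx y hy => ⟨hB.comm_mem hx hy, hcsq x hx y hy⟩)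

theorem LK (hB : Base P φ) {F : Subgroup Y} [F.Normal] (hF : F = sqs P) (hk : F ≤ φ.ker) (h4 : Nat.card F = 4)
    (hc : ∀ y : Y, ∀ f ∈ F, y * f * y⁻¹ = f) {g : Y} (hg : ∃ r : A5, r * t0 * r⁻¹ = φ g) {u : Y} (huP : u ∈ P)
    (hu : g * u * g⁻¹ * u⁻¹ ∈ F) (huF : u ∉ F) : ∀ x ∈ P, (g * x * g⁻¹ * x⁻¹ ∈ F ↔ x * u = u * x) := by
  classical
  have hcF : ∀ f ∈ F, ∀ y : Y, y * f = f * y := by
    intro f hf y
    have := hc y f hf
    rwa [mul_inv_eq_iff_eq_mul] at this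
  have hFP : F ≤ P := hF ▸ sqs_le P
  have hT := hB.top hF hk
  set π := QuotientGroup.mk' F with hπ
  have hπ1 : ∀ y : Y, π y = 1 ↔ y ∈ F := fun y => QuotientGroup.eq_one_iff y
  let C : Subgroup Y := (cv (P.map π) (π g)).comap π
  have hCmem : ∀ x, x ∈ C ↔ x ∈ P ∧ g * x * g⁻¹ * x⁻¹ ∈ F := by
    intro x
    rw [Subgroup.mem_comap, mem_cv, mk_mem_map hFP, ← hπ1]
    simp only [map_mul, map_inv]
    rw [mul_inv_eq_one]
  obtain ⟨hcv4, hcvr⟩ := cv_t hT (g := π g) (s := φ g) rfl hg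
  have hC16 : Nat.card C = 16 := by rw [card_comap_mk, hcv4, h4]
  have hfwd : ∀ x ∈ C, x * u = u * x := by
    intro x hx
    have h5 : π x ∈ (kap hT (π g)).range := by rw [hcvr]; exact hx
    obtain ⟨⟨_, v, hv, rfl⟩, hv'⟩ := h5
    have hv : v ∈ P := hv
    rw [kap_apply] at hv'
    change π g * π v * (π g)⁻¹ * (π v)⁻¹ = π x at hv'
    have h6 : (g * v * g⁻¹ * v⁻¹)⁻¹ * x ∈ F := by
      rw [← hπ1]
      simp only [map_mul, map_inv]
      rw [hv', inv_mul_cancel]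
    set f := (g * v * g⁻¹ * v⁻¹)⁻¹ * x with hf
    have hxf : x = (g * v * g⁻¹) * v⁻¹ * f := by rw [hf]; group
    -- commutator of `u` and `v`
    have hk0 : u * v * u⁻¹ * v⁻¹ ∈ F := hF ▸ hB.comm_mem huP hv
    set k := u * v * u⁻¹ * v⁻¹ with hkk
    set e := g * u * g⁻¹ * u⁻¹ with he
    have h7 : g * u * g⁻¹ = e * u := by rw [he]; group
    have h8 : (e * u) * (g * v * g⁻¹) * (e * u)⁻¹ * (g * v * g⁻¹)⁻¹ = k := by
      rw [← h7]
      calc (g * u * g⁻¹) * (g * v * g⁻¹) * (g * u * g⁻¹)⁻¹ * (g * v * g⁻¹)⁻¹ = g * (u * v * u⁻¹ * v⁻¹) * g⁻¹ := by group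
        _ = k := hc g k hk0
    set v' := g * v * g⁻¹ with hv''
    have h9 : u * v' * u⁻¹ = k * v' := by
      have h10 : (e * u) * v' * (e * u)⁻¹ = k * v' := by
        rw [← h8]; group
      have h11 : (e * u) * v' * (e * u)⁻¹ = e * (u * v' * u⁻¹) * e⁻¹ := by group
      rw [h11] at h10
      have h12 := hcF e hu (u * v' * u⁻¹)
      rw [← h12, mul_inv_cancel_right] at h10
      exact h10
    have h13 : u * v * u⁻¹ = k * v := by rw [hkk]; group
    have h14 : u * x * u⁻¹ = x := by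
      calc u * x * u⁻¹ = u * (v' * v⁻¹ * f) * u⁻¹ := by rw [← hxf]
        _ = (u * v' * u⁻¹) * (u * v * u⁻¹)⁻¹ * (u * f * u⁻¹) := by group
        _ = (k * v') * (k * v)⁻¹ * f := by rw [h9, h13, hc u f h6]
        _ = k * (v' * v⁻¹) * k⁻¹ * f := by group
        _ = (v' * v⁻¹) * k * k⁻¹ * f := by rw [hcF k hk0]
        _ = v' * v⁻¹ * f := by group
        _ = x := hxf.symm
    rw [mul_inv_eq_iff_eq_mul] at h14
    exact h14.symm
  -- the commutator map with `u`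
  let β : P →* Y :=
    { toFun := fun x => u * x * u⁻¹ * (x : Y)⁻¹
      map_one' := by simp
      map_mul' := by
        rintro ⟨x, hx⟩ ⟨y, hy⟩
        have h5 : u * y * u⁻¹ * y⁻¹ ∈ F := hF ▸ hB.comm_mem huP hy
        have h6 := hcF _ h5 x⁻¹
        change u * (x * y) * u⁻¹ * (x * y)⁻¹ = (u * x * u⁻¹ * x⁻¹) * (u * y * u⁻¹ * y⁻¹)
        calc u * (x * y) * u⁻¹ * (x * y)⁻¹ = (u * x * u⁻¹) * ((u * y * u⁻¹ * y⁻¹) * x⁻¹) := by group
          _ = (u * x * u⁻¹) * (x⁻¹ * (u * y * u⁻¹ * y⁻¹)) := by rw [h6]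
          _ = (u * x * u⁻¹ * x⁻¹) * (u * y * u⁻¹ * y⁻¹) := by group }
  have hβ : ∀ x : P, β x = u * x * u⁻¹ * (x : Y)⁻¹ := fun x => rfl
  have hβF : β.range ≤ F := by
    rintro _ ⟨x, rfl⟩
    rw [hβ, hF]
    exact hB.comm_mem huP x.2
  have hr4 : Nat.card β.range = 4 := by
    by_contra hne
    have hd : Nat.card β.range ∣ 2 ^ 2 := by
      have := Subgroup.card_dvd_of_le hβF
      rw [h4] at this
      exact this
    obtain ⟨k, hk, hβk⟩ := (Nat.dvd_prime_pow Nat.prime_two).1 hd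
    obtain ⟨F₀, h5, h6, h7⟩ : ∃ F₀ : Subgroup Y, β.range ≤ F₀ ∧ F₀ ≤ F ∧ Nat.card F₀ = 2 := by
      interval_cases k
      · have hf2 : Fact (Nat.Prime 2) := ⟨Nat.prime_two⟩
        obtain ⟨z, hz⟩ := exists_prime_orderOf_dvd_card' (G := F) 2 (by rw [h4]; norm_num)
        refine ⟨Subgroup.zpowers (z : Y), ?_, Subgroup.zpowers_le.2 z.2, ?_⟩
        · rw [Subgroup.card_eq_one.1 hβk]; exact bot_le
        · rw [Nat.card_zpowers, Subgroup.orderOf_coe, hz]
      · exact ⟨β.range, le_rfl, hβF, hβk⟩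
      · exact (hne hβk).elim
    let Rad : Subgroup Y :=
      { carrier := {w | w ∈ P ∧ ∀ x ∈ P, w * x * w⁻¹ * x⁻¹ ∈ F₀}
        one_mem' := ⟨P.one_mem, fun x hx => by
          have : (1 : Y) * x * 1⁻¹ * x⁻¹ = 1 := by group
          rw [this]; exact F₀.one_mem⟩
        mul_mem' := by
          rintro a b ⟨ha, ha'⟩ ⟨hb, hb'⟩
          refine ⟨P.mul_mem ha hb, fun x hx => ?_⟩
          have h8 := hc a _ (h6 (hb' x hx))
          have h9 : a * b * x * (a * b)⁻¹ * x⁻¹ = (a * (b * x * b⁻¹ * x⁻¹) * a⁻¹) * (a * x * a⁻¹ * x⁻¹) := by group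
          rw [h9, h8]
          exact F₀.mul_mem (hb' x hx) (ha' x hx)
        inv_mem' := by
          rintro a ⟨ha, ha'⟩
          refine ⟨P.inv_mem ha, fun x hx => ?_⟩
          have h8 := hc a⁻¹ _ (h6 (F₀.inv_mem (ha' x hx)))
          have h9 : a⁻¹ * x * a⁻¹⁻¹ * x⁻¹ = a⁻¹ * (a * x * a⁻¹ * x⁻¹)⁻¹ * a⁻¹⁻¹ := by group
          rw [h9, h8]
          exact F₀.inv_mem (ha' x hx) }
    have hRmem : ∀ w, w ∈ Rad ↔ w ∈ P ∧ ∀ x ∈ P, w * x * w⁻¹ * x⁻¹ ∈ F₀ := fun w => Iff.rfl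
    have hFR : sqs P ≤ Rad := by
      intro f hf
      rw [hRmem]
      refine ⟨sqs_le P hf, fun x hx => ?_⟩
      rw [← hcF f (hF ▸ hf) x, mul_inv_cancel_right, mul_inv_cancel]
      exact F₀.one_mem
    have huR : u ∈ Rad := by
      rw [hRmem]
      exact ⟨huP, fun x hx => h5 ⟨⟨x, hx⟩, rfl⟩⟩
    obtain ⟨c, hc5, hc1⟩ := hB.exists_five
    have h8 := hB.irred hFR (fun x hx => hx.1) c hc5 hc1 (by
      rintro w ⟨hw, hw'⟩
      refine ⟨hB.normal.conj_mem w hw c, fun x hx => ?_⟩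
      have hx' : c⁻¹ * x * c ∈ P := by
        have := hB.normal.conj_mem x hx c⁻¹
        rwa [inv_inv] at this
      have h9 : c * w * c⁻¹ * x * (c * w * c⁻¹)⁻¹ * x⁻¹ = c * (w * (c⁻¹ * x * c) * w⁻¹ * (c⁻¹ * x * c)⁻¹) * c⁻¹ := by group
      rw [h9, hc c _ (h6 (hw' _ hx'))]
      exact hw' _ hx')
    rcases h8 with h8 | h8
    · rw [h8, ← hF] at huR
      exact huF huR
    · refine comm_not_in hB (hF ▸ h4) (fun y f hf => hc y f (hF ▸ hf)) (hF ▸ h6) h7 ?_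
      intro x hx y hy
      rw [← h8] at hx
      exact hx.2 y hy
  have hker16 : Nat.card β.ker = 16 := by
    have h5 := β.ker.card_mul_index
    rw [Subgroup.index_ker, hr4, hB.card_P, ← hF, h4] at h5
    omega
  have hCK : C = β.ker.map P.subtype := by
    apply Subgroup.eq_of_le_of_card_ge
    · intro x hx
      refine ⟨⟨x, ((hCmem x).1 hx).1⟩, ?_, rfl⟩
      rw [SetLike.mem_coe, MonoidHom.mem_ker, hβ, mul_inv_eq_one, mul_inv_eq_iff_eq_mul]
      exact (hfwd x hx).symm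
    · rw [hC16, Subgroup.card_map_of_injective P.subtype_injective, hker16]
  intro x hx
  constructor
  · intro h5
    exact hfwd x ((hCmem x).2 ⟨hx, h5⟩)
  · intro h5
    have h6 : x ∈ C := by
      rw [hCK]
      refine ⟨⟨x, hx⟩, ?_, rfl⟩
      rw [SetLike.mem_coe, MonoidHom.mem_ker, hβ, mul_inv_eq_one, mul_inv_eq_iff_eq_mul]
      exact h5.symm
    exact ((hCmem x).1 h6).2

end Cfsg.Agent.H38.SA5
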