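import Mathlib
import Cfsg.Agent.H38.SA5F

set_option autoImplicit false
set_option linter.unusedSectionVars false
set_option linter.unusedVariables false

/-! `Φ(P)` of order 4 is impossible, third part; `Φ(P)` has order at most 2. -/

namespace Cfsg.Agent.H38.SA5

open Equiv
open Cfsg.Agent.H38.SR4 (cv mem_cv cv_le)

theorem no_a {Y : Type*} [Group Y] [Finite Y] {P : Subgroup Y} {φ : Y →* A5} (hB : Base P φ)
    (h4' : Nat.card (sqs P) = 4) : False := by
  classical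
  have hFn := sqs_normal hB.normal
  have hk : sqs P ≤ φ.ker := by rw [hB.ker]; exact sqs_le P
  obtain ⟨F, hF⟩ : ∃ F : Subgroup Y, F = sqs P := ⟨_, rfl⟩
  have hFn : F.Normal := hF ▸ hFn
  have hk : F ≤ φ.ker := hF ▸ hk
  have h4 : Nat.card F = 4 := hF ▸ h4'
  have hc : ∀ y : Y, ∀ f ∈ F, y * f * y⁻¹ = f := hF ▸ F_central hB h4'
  have hexp : ∀ f ∈ F, f * f = 1 := hF ▸ F_exp hB h4' (F_central hB h4')
  have hcF : ∀ f ∈ F, ∀ y : Y, y * f = f * y := by
    intro f hf y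
    have := hc y f hf
    rwa [mul_inv_eq_iff_eq_mul] at this
  have hFP : F ≤ P := hF ▸ sqs_le P
  have hT := hB.top hF hk
  set π := QuotientGroup.mk' F with hπ
  have hπ1 : ∀ y : Y, π y = 1 ↔ y ∈ F := fun y => QuotientGroup.eq_one_iff y
  obtain ⟨a1, h1⟩ := hB.surj s1
  obtain ⟨a2, h2⟩ := hB.surj s2
  obtain ⟨d, hd⟩ := hB.surj sd
  obtain ⟨e, he⟩ := hB.surj se
  have h3 : φ (a1 * a2) = s1 * s2 := by rw [map_mul, h1, h2]
  obtain ⟨hcj1, hcj2, hcj3⟩ := s_conj
  have hmem : ∀ g x : Y, π x ∈ cv (P.map π) (π g) ↔ x ∈ P ∧ g * x * g⁻¹ * x⁻¹ ∈ F := by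
    intro g x
    rw [mem_cv, mk_mem_map hFP, ← hπ1]
    simp only [map_mul, map_inv]
    rw [mul_inv_eq_one]
  -- a common fixed point
  obtain ⟨ub, hub, hub1, hub2⟩ : ∃ ub ∈ cv (P.map π) (π a1), ub ≠ 1 ∧ π a2 * ub * (π a2)⁻¹ = ub := by
    have hcard := (cv_t hT (g := π a1) (s := s1) h1 hcj1).1
    have hne : cv (P.map π) (π a1) ≠ ⊥ := by
      intro h
      rw [h, Subgroup.card_bot] at hcard
      omega
    obtain ⟨v, hv, hv1⟩ := (cv (P.map π) (π a1)).bot_or_exists_ne_one.resolve_left hne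
    have hbv : π a2 * v * (π a2)⁻¹ ∈ cv (P.map π) (π a1) := by
      have h5 : (QuotientGroup.lift F φ hk) (π a2 * π a1 * (π a2)⁻¹) = (QuotientGroup.lift F φ hk) (π a1) := by
        rw [map_mul, map_mul, map_inv]
        change φ a2 * φ a1 * (φ a2)⁻¹ = φ a1
        rw [h1, h2, ← s_rel.1, mul_inv_cancel_right]
      rw [hT.cv_eq h5.symm.symm, hT.cv_conj]
      exact ⟨v, hv, rfl⟩
    by_cases hfix : π a2 * v * (π a2)⁻¹ = v
    · exact ⟨v, hv, hv1, hfix⟩
    · refine ⟨v * (π a2 * v * (π a2)⁻¹), (cv (P.map π) (π a1)).mul_mem hv hbv, ?_, ?_⟩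
      · intro h
        apply hfix
        rw [mul_eq_one_iff_inv_eq, hT.inv_eq hv.1] at h
        exact h.symm
      · have h22 : π a2 * π a2 ∈ P.map π := by
          rw [hT.phi_mem, map_mul]
          change φ a2 * φ a2 = 1
          rw [h2]
          decide +kernel
        have h5 := hT.cent _ h22 v hv.1
        have h6 : π a2 * (v * (π a2 * v * (π a2)⁻¹)) * (π a2)⁻¹ = (π a2 * v * (π a2)⁻¹) * (π a2 * π a2 * v * (π a2 * π a2)⁻¹) := by group
        rw [h6, h5]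
        exact hT.comm _ hbv.1 _ hv.1
  obtain ⟨u, hu, rfl⟩ := hub.1
  have hu : u ∈ P := hu
  have huF : u ∉ F := fun h => hub1 ((hπ1 u).2 h)
  have hu1 : a1 * u * a1⁻¹ * u⁻¹ ∈ F := ((hmem a1 u).1 hub).2
  have hu3 : (a1 * a2) * u * (a1 * a2)⁻¹ * u⁻¹ ∈ F := by
    refine ((hmem (a1 * a2) u).1 ⟨hub.1, ?_⟩).2
    have h5 := hub.2
    rw [map_mul]
    calc π a1 * π a2 * π u * (π a1 * π a2)⁻¹ = π a1 * (π a2 * π u * (π a2)⁻¹) * (π a1)⁻¹ := by group
      _ = π u := by rw [hub2, h5]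
  have hLK1 := LK hB hF hk h4 hc (g := a1) (by rw [h1]; exact hcj1) hu hu1 huF
  have hLK3 := LK hB hF hk h4 hc (g := a1 * a2) (by rw [h3]; exact hcj3) hu hu3 huF
  have hUeq : cv (P.map π) (π a1) = cv (P.map π) (π (a1 * a2)) := by
    ext x
    obtain ⟨y, rfl⟩ := QuotientGroup.mk'_surjective F x
    rw [hmem, hmem]
    constructor
    · rintro ⟨hy, h5⟩
      exact ⟨hy, (hLK3 y hy).2 ((hLK1 y hy).1 h5)⟩
    · rintro ⟨hy, h5⟩
      exact ⟨hy, (hLK1 y hy).2 ((hLK3 y hy).1 h5)⟩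
  obtain ⟨hk1, hk2, hk3⟩ := klein hT (a1 := π a1) (a3 := π (a1 * a2)) (d := π d) (e := π e) h1 h3 hd he hUeq
  -- `U` is abelian
  have hUcomm : ∀ x ∈ P, a1 * x * a1⁻¹ * x⁻¹ ∈ F → ∀ y ∈ P, a1 * y * a1⁻¹ * y⁻¹ ∈ F → y * x = x * y := by
    intro x hx hx' y hy hy'
    by_cases hxF : x ∈ F
    · exact hcF x hxF y
    · exact (LK hB hF hk h4 hc (g := a1) (by rw [h1]; exact hcj1) hx hx' hxF y hy).1 hy'
  have hPn := hB.normal
  have hdU : ∀ x ∈ P, a1 * x * a1⁻¹ * x⁻¹ ∈ F → a1 * (d * x * d⁻¹) * a1⁻¹ * (d * x * d⁻¹)⁻¹ ∈ F := by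
    intro x hx hx'
    have h5 := hk1 (π x) ((hmem a1 x).2 ⟨hx, hx'⟩)
    have h6 : π d * π x * (π d)⁻¹ = π (d * x * d⁻¹) := by simp only [map_mul, map_inv]
    rw [h6, hmem] at h5
    exact h5.2
  have hsq1 : ∀ x ∈ P, a1 * x * a1⁻¹ * x⁻¹ ∈ F → x * x = 1 := by
    intro x hx hx'
    have hy := hPn.conj_mem x hx d
    have hy' := hdU x hx hx'
    have hz := hPn.conj_mem _ hy d
    have hz' := hdU _ hy hy'
    have hxx : x * x ∈ F := hF ▸ mem_sqs hx
    have hyy : (d * x * d⁻¹) * (d * x * d⁻¹) = x * x := by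
      rw [show (d * x * d⁻¹) * (d * x * d⁻¹) = d * (x * x) * d⁻¹ by group, hc d _ hxx]
    have hzz : (d * (d * x * d⁻¹) * d⁻¹) * (d * (d * x * d⁻¹) * d⁻¹) = x * x := by
      rw [show (d * (d * x * d⁻¹) * d⁻¹) * (d * (d * x * d⁻¹) * d⁻¹) = d * ((d * x * d⁻¹) * (d * x * d⁻¹)) * d⁻¹ by group,
        hyy, hc d _ hxx]
    have hn : x * (d * x * d⁻¹) * (d * (d * x * d⁻¹) * d⁻¹) ∈ F := by
      rw [← hπ1]
      have h5 := hk2 (π x) ((hmem a1 x).2 ⟨hx, hx'⟩)
      have h6 : d * (d * x * d⁻¹) * d⁻¹ = d * d * x * (d * d)⁻¹ := by group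
      rw [h6]
      simp only [map_mul, map_inv]
      exact h5
    have hnn := hexp _ hn
    set y := d * x * d⁻¹
    set z := d * y * d⁻¹
    have hxy := hUcomm x hx hx' y hy hy'
    have hxz := hUcomm x hx hx' z hz hz'
    have hyz := hUcomm y hy hy' z hz hz'
    have h7 : x * y * z * (x * y * z) = (x * x) * ((y * y) * (z * z)) := by
      calc x * y * z * (x * y * z) = x * y * (z * x) * y * z := by group
        _ = x * y * (x * z) * y * z := by rw [hxz]
        _ = x * (y * x) * (z * y) * z := by group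
        _ = x * (x * y) * (y * z) * z := by rw [hxy, hyz]
        _ = (x * x) * ((y * y) * (z * z)) := by group
    rw [h7, hyy, hzz, hexp _ hxx, mul_one] at hnn
    exact hnn
  -- the final contradiction
  set w := e * u * e⁻¹ with hw
  have hwP : w ∈ P := hPn.conj_mem u hu e
  have hww : w * w = 1 := by
    have h5 := hsq1 u hu hu1
    rw [hw, show e * u * e⁻¹ * (e * u * e⁻¹) = e * (u * u) * e⁻¹ by group, h5]
    group
  have hwU : a1 * w * a1⁻¹ * w⁻¹ ∉ F := by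
    intro h5
    have h6 : π e * π u * (π e)⁻¹ = π w := by rw [hw]; simp only [map_mul, map_inv]
    have h7 := hk3 (π u) hub (by rw [h6]; exact (hmem a1 w).2 ⟨hwP, h5⟩)
    exact hub1 h7
  set k := a1 * w * a1⁻¹ * w⁻¹ with hkk
  have hkP : k ∈ P := P.mul_mem (hPn.conj_mem w hwP a1) (P.inv_mem hwP)
  have hkU : a1 * k * a1⁻¹ * k⁻¹ ∈ F := by
    have h11 : π a1 * π a1 ∈ P.map π := by
      rw [hT.phi_mem, map_mul]
      change φ a1 * φ a1 = 1
      rw [h1]
      decide +kernel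
    have h5 := range_le_cv hT (π a1) h11 (x := π k) ⟨⟨π w, (mk_mem_map hFP w).2 hwP⟩, by
      rw [kap_apply, hkk]
      simp only [map_mul, map_inv]⟩
    exact ((hmem a1 k).1 h5).2
  have hkk1 := hsq1 k hkP hkU
  have h5 : (k * w) * (k * w) = 1 := by
    have h6 : k * w = a1 * w * a1⁻¹ := by rw [hkk]; group
    rw [h6, show a1 * w * a1⁻¹ * (a1 * w * a1⁻¹) = a1 * (w * w) * a1⁻¹ by group, hww]
    group
  have h6 : w * k = k * w := by
    have h7 : k * w = (k * w)⁻¹ := eq_inv_of_mul_eq_one_left h5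
    have h8 : w⁻¹ = w := inv_eq_of_mul_eq_one_right hww
    have h9 : k⁻¹ = k := inv_eq_of_mul_eq_one_right hkk1
    rw [mul_inv_rev, h8, h9] at h7
    exact h7.symm
  exact hwU ((LK hB hF hk h4 hc (g := a1) (by rw [h1]; exact hcj1) hkP hkU hwU w hwP).2 h6)

/-- the main reduction -/
theorem card_sqs : ∀ (n : ℕ) {Y : Type*} [Group Y] [Finite Y] {P : Subgroup Y} {φ : Y →* A5}, Nat.card Y = n → Base P φ →
    sqs P ≠ ⊥ → Nat.card (sqs P) = 2 := by
  intro n
  induction n using Nat.strong_induction_on with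
  | _ n ih =>
    intro Y _ _ P φ hn hB hF1
    classical
    have hFn := sqs_normal hB.normal
    -- a minimal normal subgroup inside `Φ(P)`
    obtain ⟨N, ⟨hNn, hNF, hN1⟩, hmin⟩ := Set.Finite.exists_minimal (s := {N : Subgroup Y | N.Normal ∧ N ≤ sqs P ∧ N ≠ ⊥})
      (Set.toFinite _) ⟨sqs P, hFn, le_rfl, hF1⟩
    have hmin' : ∀ M : Subgroup Y, M.Normal → M ≤ N → M = ⊥ ∨ M = N := by
      intro M hM hMN
      by_cases hM1 : M = ⊥
      · exact Or.inl hM1
      · exact Or.inr (le_antisymm hMN (hmin ⟨hM, hMN.trans hNF, hM1⟩ hMN))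
    by_cases hNe : N = sqs P
    · subst hNe
      exact card_of_min hB hF1 hmin'
    · exfalso
      obtain ⟨-, -, hdic⟩ := dichotomy hB hNn (hNF.trans (sqs_le P)) hN1 hmin'
      have hk : N ≤ φ.ker := by rw [hB.ker]; exact hNF.trans (sqs_le P)
      have hBq := hB.quot hNF hk
      have hlt : Nat.card (Y ⧸ N) < n := by
        have h1 := N.card_mul_index
        rw [Subgroup.index] at h1
        have h2 : 1 < Nat.card N := by
          rw [Finite.one_lt_card_iff_nontrivial]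
          exact (Subgroup.nontrivial_iff_ne_bot N).2 hN1
        have h3 : 0 < Nat.card (Y ⧸ N) := Nat.card_pos
        rw [← hn, ← h1]
        nlinarith
      have hne : sqs (P.map (QuotientGroup.mk' N)) ≠ ⊥ := by
        rw [sqs_map]
        intro h
        rw [Subgroup.map_eq_bot_iff, QuotientGroup.ker_mk'] at h
        exact hNe (le_antisymm hNF h)
      have h2 := ih _ hlt rfl hBq hne
      rw [sqs_map] at h2
      have h3 := card_map_mk (P := sqs P) hNF
      rw [h2] at h3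
      rcases hdic with h4 | h4
      · rw [h4] at h3
        exact no_a hB h3.symm
      · exact no_b hB h4 hNF h3.symm

end Cfsg.Agent.H38.SA5
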