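import Mathlib
import Cfsg.Agent.H38.SA5G
import Cfsg.Agent.H62.SL23Rec
import Cfsg.Agent.Fus.SmallP

set_option autoImplicit false
set_option linter.unusedSectionVars false
set_option linter.unusedVariables false
set_option linter.unusedSimpArgs false

/-! The central product of a quaternion and a dihedral group of order 8. -/

namespace Cfsg.Agent.H38.SA5

open Equiv

/-- the central product of `Q₈` and `D₈` -/
def IsQD (Q : Type*) [Group Q] : Prop :=
  ∃ A B : Subgroup Q, Nonempty (↥A ≃* QuaternionGroup 2) ∧ Nonempty (↥B ≃* DihedralGroup 4) ∧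
    (∀ a ∈ A, ∀ b ∈ B, a * b = b * a) ∧ A ⊔ B = ⊤ ∧ A ⊓ B = Subgroup.center Q

theorem IsQD.of_equiv {Q Q' : Type*} [Group Q] [Group Q'] (h : IsQD Q) (e : Q ≃* Q') : IsQD Q' := by
  obtain ⟨A, B, ⟨eA⟩, ⟨eB⟩, hc, hs, hi⟩ := h
  refine ⟨A.map e.toMonoidHom, B.map e.toMonoidHom, ⟨(A.equivMapOfInjective e.toMonoidHom e.injective).symm.trans eA⟩,
    ⟨(B.equivMapOfInjective e.toMonoidHom e.injective).symm.trans eB⟩, ?_, ?_, ?_⟩
  · rintro _ ⟨a, ha, rfl⟩ _ ⟨b, hb, rfl⟩
    rw [← map_mul, hc a ha b hb, map_mul]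
  · rw [← Subgroup.map_sup, hs, ← MonoidHom.range_eq_map, MonoidHom.range_eq_top]
    exact e.surjective
  · rw [← Subgroup.map_inf _ _ _ e.injective, hi]
    ext y
    constructor
    · rintro ⟨x, hx, rfl⟩
      rw [Subgroup.mem_center_iff]
      intro g
      obtain ⟨g', rfl⟩ := e.surjective g
      change e g' * e x = e x * e g'
      rw [← map_mul, ← map_mul, Subgroup.mem_center_iff.1 hx g']
    · intro hy
      refine ⟨e.symm y, ?_, e.apply_symm_apply y⟩
      rw [SetLike.mem_coe, Subgroup.mem_center_iff]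
      intro g
      apply e.injective
      rw [map_mul, map_mul, e.apply_symm_apply]
      exact Subgroup.mem_center_iff.1 hy _

theorem struct {Q : Type*} [Group Q] [Finite Q] (hQ : Nat.card Q = 32) {x0 x1 x2 x3 z : Q} (hz : z * z = 1) (hz1 : z ≠ 1)
    (hzc : ∀ x, x * z = z * x) (h0 : x0 * x0 = 1) (h1 : x1 * x1 = 1) (h2 : x2 * x2 = 1) (h3 : x3 * x3 = 1)
    (h10 : x1 * x0 = z * (x0 * x1)) (h20 : x2 * x0 = z * (x0 * x2)) (h30 : x3 * x0 = z * (x0 * x3))
    (h21 : x2 * x1 = z * (x1 * x2)) (h31 : x3 * x1 = z * (x1 * x3)) (h32 : x3 * x2 = z * (x2 * x3))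
    (hcen : ∀ w : Q, (∀ x, w * x = x * w) → w = 1 ∨ w = z)
    (hgen : ∀ S : Subgroup Q, x0 ∈ S → x1 ∈ S → x2 ∈ S → x3 ∈ S → S = ⊤) : IsQD Q := by
  have c0 := hzc x0
  have c1 := hzc x1
  have c2 := hzc x2
  have c3 := hzc x3
  have asc : ∀ {a b c d : Q}, a * b = c * d → ∀ t, a * (b * t) = c * (d * t) := by
    intro a b c d h t
    rw [← mul_assoc, h, mul_assoc]
  have asc3 : ∀ {a b c d e : Q}, a * b = c * (d * e) → ∀ t, a * (b * t) = c * (d * (e * t)) := by
    intro a b c d e h t
    rw [← mul_assoc, h, mul_assoc, mul_assoc]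
  have asc1 : ∀ {a b : Q}, a * b = 1 → ∀ t, a * (b * t) = t := by
    intro a b h t
    rw [← mul_assoc, h, one_mul]
  have c0' := asc c0
  have c1' := asc c1
  have c2' := asc c2
  have c3' := asc c3
  have hz' := asc1 hz
  have h0' := asc1 h0
  have h1' := asc1 h1
  have h2' := asc1 h2
  have h3' := asc1 h3
  have h10' := asc3 h10
  have h20' := asc3 h20
  have h30' := asc3 h30
  have h21' := asc3 h21
  have h31' := asc3 h31
  have h32' := asc3 h32
  set w1 := x0 * (x1 * x2) with hw1
  set w2 := x0 * (x1 * x3) with hw2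
  have e1 : w1 * w1 = z := by
    simp only [hw1, mul_assoc, c0, c1, c2, c3, c0', c1', c2', c3', hz, hz', h0, h1, h2, h3, h0', h1', h2', h3', h10, h20, h30,
      h21, h31, h32, h10', h20', h30', h21', h31', h32', mul_one, one_mul]
  have e2 : w2 * w2 = z := by
    simp only [hw2, mul_assoc, c0, c1, c2, c3, c0', c1', c2', c3', hz, hz', h0, h1, h2, h3, h0', h1', h2', h3', h10, h20, h30,
      h21, h31, h32, h10', h20', h30', h21', h31', h32', mul_one, one_mul]
  have e12 : w2 * w1 = z * (w1 * w2) := by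
    simp only [hw1, hw2, mul_assoc, c0, c1, c2, c3, c0', c1', c2', c3', hz, hz', h0, h1, h2, h3, h0', h1', h2', h3', h10, h20, h30,
      h21, h31, h32, h10', h20', h30', h21', h31', h32', mul_one, one_mul]
  have k10 : w1 * x0 = x0 * w1 := by
    simp only [hw1, hw2, mul_assoc, c0, c1, c2, c3, c0', c1', c2', c3', hz, hz', h0, h1, h2, h3, h0', h1', h2', h3', h10, h20, h30,
      h21, h31, h32, h10', h20', h30', h21', h31', h32', mul_one, one_mul]
  have k11 : w1 * x1 = x1 * w1 := by
    simp only [hw1, hw2, mul_assoc, c0, c1, c2, c3, c0', c1', c2', c3', hz, hz', h0, h1, h2, h3, h0', h1', h2', h3', h10, h20, h30,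
      h21, h31, h32, h10', h20', h30', h21', h31', h32', mul_one, one_mul]
  have k20 : w2 * x0 = x0 * w2 := by
    simp only [hw1, hw2, mul_assoc, c0, c1, c2, c3, c0', c1', c2', c3', hz, hz', h0, h1, h2, h3, h0', h1', h2', h3', h10, h20, h30,
      h21, h31, h32, h10', h20', h30', h21', h31', h32', mul_one, one_mul]
  have k21 : w2 * x1 = x1 * w2 := by
    simp only [hw1, hw2, mul_assoc, c0, c1, c2, c3, c0', c1', c2', c3', hz, hz', h0, h1, h2, h3, h0', h1', h2', h3', h10, h20, h30,
      h21, h31, h32, h10', h20', h30', h21', h31', h32', mul_one, one_mul]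
  let A : Subgroup Q := Subgroup.closure {w1, w2}
  let B : Subgroup Q := Subgroup.closure {x0, x1}
  have hzi : z⁻¹ = z := inv_eq_of_mul_eq_one_right hz
  have w1i : w1⁻¹ = z * w1 := by
    apply inv_eq_of_mul_eq_one_right
    rw [← mul_assoc, hzc w1, mul_assoc, e1, hz]
  have hA : Nonempty (A ≃* QuaternionGroup 2) := by
    refine Cfsg.Agent.H62.closure_equiv_quat (s := w1) (t := w2) ?_ ?_ ?_ ?_
    · rw [pow_mul, pow_two w1, e1, pow_two, hz]
    · rw [pow_two, e1]; exact hz1
    · rw [pow_two, e1, e2]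
    · rw [mul_inv_eq_iff_eq_mul, e12, w1i]; exact (mul_assoc z w1 w2).symm
  have hw1A : w1 ∈ A := Subgroup.subset_closure (by simp)
  have hw2A : w2 ∈ A := Subgroup.subset_closure (by simp)
  have hx0B : x0 ∈ B := Subgroup.subset_closure (by simp)
  have hx1B : x1 ∈ B := Subgroup.subset_closure (by simp)
  have hzA : z ∈ A := by rw [← e1]; exact A.mul_mem hw1A hw1A
  have hzB : z ∈ B := by
    have h5 : (x0 * x1) * (x0 * x1) = z := by
      simp only [mul_assoc, c0, c1, c2, c3, c0', c1', c2', c3', hz, hz', h0, h1, h2, h3, h0', h1', h2', h3', h10, h20, h30,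
        h21, h31, h32, h10', h20', h30', h21', h31', h32', mul_one, one_mul]
    rw [← h5]
    exact B.mul_mem (B.mul_mem hx0B hx1B) (B.mul_mem hx0B hx1B)
  have hcomm : ∀ a ∈ A, ∀ b ∈ B, a * b = b * a := by
    have h5 : A ≤ Subgroup.centralizer (B : Set Q) := by
      rw [Subgroup.closure_le]
      have h6 : ∀ w, w * x0 = x0 * w → w * x1 = x1 * w → w ∈ Subgroup.centralizer (B : Set Q) := by
        intro w hw0 hw1
        have h7 : B ≤ Subgroup.centralizer ({w} : Set Q) := by
          rw [Subgroup.closure_le]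
          rintro y (rfl | rfl)
          · exact Subgroup.mem_centralizer_singleton_iff.2 hw0.symm
          · exact Subgroup.mem_centralizer_singleton_iff.2 hw1.symm
        rw [Subgroup.mem_centralizer_iff]
        intro y hy
        exact Subgroup.mem_centralizer_singleton_iff.1 (h7 hy)
      rintro y (rfl | rfl)
      · exact h6 _ k10 k11
      · exact h6 _ k20 k21
    intro a ha b hb
    exact (Subgroup.mem_centralizer_iff.1 (h5 ha) b hb).symm
  have htop : A ⊔ B = ⊤ := by
    have m0 : x0 ∈ A ⊔ B := Subgroup.mem_sup_right hx0B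
    have m1 : x1 ∈ A ⊔ B := Subgroup.mem_sup_right hx1B
    have n1 : w1 ∈ A ⊔ B := Subgroup.mem_sup_left hw1A
    have n2 : w2 ∈ A ⊔ B := Subgroup.mem_sup_left hw2A
    refine hgen _ m0 m1 ?_ ?_
    · have : x2 = (x0 * x1)⁻¹ * w1 := by rw [hw1]; group
      rw [this]
      exact (A ⊔ B).mul_mem ((A ⊔ B).inv_mem ((A ⊔ B).mul_mem m0 m1)) n1
    · have : x3 = (x0 * x1)⁻¹ * w2 := by rw [hw2]; group
      rw [this]
      exact (A ⊔ B).mul_mem ((A ⊔ B).inv_mem ((A ⊔ B).mul_mem m0 m1)) n2
  have hinf : A ⊓ B = Subgroup.center Q := by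
    apply le_antisymm
    · rintro w ⟨hwA, hwB⟩
      rw [Subgroup.mem_center_iff]
      intro g
      have h5 : A ⊔ B ≤ Subgroup.centralizer ({w} : Set Q) := by
        apply sup_le
        · intro a ha
          exact Subgroup.mem_centralizer_singleton_iff.2 (hcomm a ha w hwB)
        · intro b hb
          exact Subgroup.mem_centralizer_singleton_iff.2 (hcomm w hwA b hb).symm
      rw [htop] at h5
      exact Subgroup.mem_centralizer_singleton_iff.1 (h5 trivial)
    · intro w hw
      rcases hcen w (fun x => (Subgroup.mem_center_iff.1 hw x).symm) with h5 | h5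
      · rw [h5]; exact Subgroup.one_mem _
      · rw [h5]; exact ⟨hzA, hzB⟩
  have hcc : Nat.card (Subgroup.center Q) = 2 := by
    have h5 : Subgroup.center Q = Subgroup.zpowers z := by
      apply le_antisymm
      · intro w hw
        rcases hcen w (fun x => (Subgroup.mem_center_iff.1 hw x).symm) with h5 | h5
        · rw [h5]; exact Subgroup.one_mem _
        · rw [h5]; exact Subgroup.mem_zpowers z
      · rw [Subgroup.zpowers_le, Subgroup.mem_center_iff]
        exact hzc
    rw [h5, Nat.card_zpowers]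
    exact orderOf_eq_prime (by rw [pow_two, hz]) hz1
  have hA8 : Nat.card A = 8 := by
    obtain ⟨e⟩ := hA
    rw [Nat.card_congr e.toEquiv, Nat.card_eq_fintype_card, QuaternionGroup.card]
  have hAn : A.Normal := by
    refine ⟨fun a ha g => ?_⟩
    have h5 : A ⊔ B ≤ Subgroup.normalizer (A : Set Q) := by
      apply sup_le Subgroup.le_normalizer
      intro b hb
      rw [Subgroup.mem_normalizer_iff]
      intro a
      constructor
      · intro ha
        rw [← hcomm a ha b hb, mul_inv_cancel_right]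
        exact ha
      · intro ha
        have h6 := hcomm _ ha b hb
        have h7 : a = b * a * b⁻¹ := by
          have h8 : b⁻¹ * (b * a * b⁻¹) * b = b * a * b⁻¹ := by
            rw [mul_assoc, h6, inv_mul_cancel_left]
          rw [← h8]; group
        rw [h7]
        exact ha
    rw [htop] at h5
    exact ((Subgroup.mem_normalizer_iff.1 (h5 (Subgroup.mem_top g))) a).1 ha
  have hB8 : Nat.card B = 8 := by
    have h5 : A.relIndex (B ⊔ A) = A.relIndex B := Subgroup.relIndex_sup_right B A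
    rw [sup_comm, htop, Subgroup.relIndex_top_right] at h5
    have h6 := A.card_mul_index
    rw [hA8, hQ] at h6
    have h7 := (A.subgroupOf B).card_mul_index
    have h8 : Nat.card (A.subgroupOf B) = 2 := by
      rw [← Subgroup.inf_subgroupOf_right, Nat.card_congr (Subgroup.subgroupOfEquivOfLe inf_le_right).toEquiv, hinf, hcc]
    rw [h8] at h7
    change 2 * A.relIndex B = Nat.card B at h7
    rw [← h5] at h7
    omega
  refine ⟨A, B, hA, ?_, hcomm, htop, hinf⟩
  refine Cfsg.Agent.Fus.dihedral4_of_involutions (G := B) hB8 (x := ⟨x0, hx0B⟩) (y := ⟨x1, hx1B⟩) ?_ ?_ ?_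
  · exact Subtype.ext (by change x0 ^ 2 = 1; rw [pow_two, h0])
  · exact Subtype.ext (by change x1 ^ 2 = 1; rw [pow_two, h1])
  · intro h5
    have h6 : x0 * x1 = x1 * x0 := congrArg Subtype.val h5
    rw [h10, eq_comm, mul_eq_right] at h6
    exact hz1 h6

end Cfsg.Agent.H38.SA5
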