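import Mathlib
import Cfsg.Agent.H38.SA5H

set_option autoImplicit false
set_option linter.unusedSectionVars false
set_option linter.unusedVariables false
set_option linter.unusedSimpArgs false

/-! The extraspecial case. -/

namespace Cfsg.Agent.H38.SA5

open Equiv
open Cfsg.Agent.H38.SR4 (cv mem_cv cv_le)

/-- `P` is not abelian when `Φ(P) ≠ 1` is central of order 2 -/
theorem not_abelian {Y : Type*} [Group Y] [Finite Y] {P : Subgroup Y} {φ : Y →* A5} (hB : Base P φ)
    (h2 : Nat.card (sqs P) = 2) : ¬ ∀ x ∈ P, ∀ y ∈ P, x * y = y * x := by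
  intro hab
  obtain ⟨F, hF⟩ : ∃ F : Subgroup Y, F = sqs P := ⟨_, rfl⟩
  have hFexp : ∀ f ∈ sqs P, f * f = 1 := by
    intro f hf
    have h7 : (⟨f, hf⟩ : sqs P) ^ Nat.card (sqs P) = 1 := pow_card_eq_one'
    rw [h2, pow_two] at h7
    exact congrArg Subtype.val h7
  let K : Subgroup Y :=
    { carrier := {x | x ∈ P ∧ x * x = 1}
      one_mem' := ⟨P.one_mem, by rw [one_mul]⟩
      mul_mem' := by
        rintro a b ⟨ha, ha'⟩ ⟨hb, hb'⟩
        refine ⟨P.mul_mem ha hb, ?_⟩
        calc a * b * (a * b) = a * (b * a) * b := by group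
          _ = a * (a * b) * b := by rw [hab a ha b hb]
          _ = (a * a) * (b * b) := by group
          _ = 1 := by rw [ha', hb', one_mul]
      inv_mem' := by
        rintro a ⟨ha, ha'⟩
        refine ⟨P.inv_mem ha, ?_⟩
        rw [← mul_inv_rev, ha', inv_one] }
  have hKmem : ∀ x, x ∈ K ↔ x ∈ P ∧ x * x = 1 := fun x => Iff.rfl
  have hFK : sqs P ≤ K := fun f hf => (hKmem f).2 ⟨sqs_le P hf, hFexp f hf⟩
  obtain ⟨c, hc5, hc1⟩ := hB.exists_five
  have h5 := hB.irred hFK (fun x hx => hx.1) c hc5 hc1 (by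
    rintro u ⟨hu, hu'⟩
    refine ⟨hB.normal.conj_mem u hu c, ?_⟩
    have h6 : c * u * c⁻¹ * (c * u * c⁻¹) = c * (u * u) * c⁻¹ := by group
    rw [h6, hu']; group)
  rcases h5 with h5 | h5
  · let g : P →* Y :=
      { toFun := fun x => (x : Y) * x
        map_one' := by simp
        map_mul' := by
          rintro ⟨a, ha⟩ ⟨b, hb⟩
          change a * b * (a * b) = a * a * (b * b)
          calc a * b * (a * b) = a * (b * a) * b := by group
            _ = a * (a * b) * b := by rw [hab a ha b hb]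
            _ = (a * a) * (b * b) := by group }
    have hgr : g.range ≤ sqs P := by
      rintro _ ⟨x, rfl⟩
      exact mem_sqs x.2
    have hgk : g.ker = (sqs P).subgroupOf P := by
      ext x
      rw [MonoidHom.mem_ker, Subgroup.mem_subgroupOf, ← h5, hKmem]
      exact ⟨fun h => ⟨x.2, h⟩, fun h => h.2⟩
    have h6 := g.ker.card_mul_index
    rw [Subgroup.index_ker, hgk, Nat.card_congr (Subgroup.subgroupOfEquivOfLe (sqs_le P)).toEquiv, hB.card_P, h2] at h6
    have h7 := Nat.le_of_dvd Nat.card_pos (Subgroup.card_dvd_of_le hgr)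
    rw [h2] at h7
    omega
  · have h6 : sqs P ≤ ⊥ := by
      rw [sqs, Subgroup.closure_le]
      rintro _ ⟨x, hx, rfl⟩
      rw [← h5] at hx
      exact Subgroup.mem_bot.2 hx.2
    have := Nat.card_le_card_of_injective _ (Subgroup.inclusion_injective h6)
    rw [h2, Subgroup.card_bot] at this
    omega

theorem extra_case {Y : Type*} [Group Y] [Finite Y] {P : Subgroup Y} {φ : Y →* A5} (hB : Base P φ)
    (h2 : Nat.card (sqs P) = 2) : Nat.card P = 32 ∧ IsQD P := by
  classical
  have hP32 : Nat.card P = 32 := by rw [hB.card_P, h2]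
  refine ⟨hP32, ?_⟩
  have hFn := sqs_normal hB.normal
  have hPn := hB.normal
  obtain ⟨F, hF⟩ : ∃ F : Subgroup Y, F = sqs P := ⟨_, rfl⟩
  have hFn : F.Normal := hF ▸ hFn
  have hk : F ≤ φ.ker := by rw [hB.ker, hF]; exact sqs_le P
  have hF2 : Nat.card F = 2 := hF ▸ h2
  have hFP : F ≤ P := hF ▸ sqs_le P
  obtain ⟨⟨z, hzF⟩, hz1', huniq⟩ := (Nat.card_eq_two_iff' (1 : F)).1 hF2
  have hz1 : z ≠ 1 := fun h => hz1' (Subtype.ext h)
  have hcases : ∀ f ∈ F, f = 1 ∨ f = z := by
    intro f hf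
    by_cases h : f = 1
    · exact Or.inl h
    · exact Or.inr (congrArg Subtype.val (huniq ⟨f, hf⟩ (fun h' => h (congrArg Subtype.val h'))))
  have hzc' : ∀ y : Y, y * z * y⁻¹ = z := by
    intro y
    rcases hcases _ (hFn.conj_mem z hzF y) with h | h
    · rw [mul_inv_eq_one, mul_eq_left] at h
      exact (hz1 h).elim
    · exact h
  have hzc : ∀ y : Y, y * z = z * y := fun y => by
    have := hzc' y
    rwa [mul_inv_eq_iff_eq_mul] at this
  have hzz : z * z = 1 := by
    rcases hcases _ (F.mul_mem hzF hzF) with h | h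
    · exact h
    · rw [mul_eq_left] at h
      exact (hz1 h).elim
  have hcF : ∀ f ∈ F, ∀ y : Y, y * f = f * y := by
    intro f hf y
    rcases hcases f hf with rfl | rfl
    · group
    · exact hzc y
  have hsq : ∀ x ∈ P, x * x = 1 ∨ x * x = z := fun x hx => hcases _ (hF ▸ mem_sqs hx)
  have hcm : ∀ x ∈ P, ∀ y ∈ P, y * x = x * y ∨ y * x = z * (x * y) := by
    intro x hx y hy
    have h5 : y * x * y⁻¹ * x⁻¹ ∈ F := hF ▸ hB.comm_mem hy hx
    rcases hcases _ h5 with h | h
    · left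
      rw [mul_inv_eq_one, mul_inv_eq_iff_eq_mul] at h
      exact h
    · right
      rw [mul_inv_eq_iff_eq_mul, mul_inv_eq_iff_eq_mul, mul_assoc] at h
      exact h
  obtain ⟨c, hc5, hc1⟩ := hB.exists_five
  have hirr : ∀ U : Subgroup Y, F ≤ U → U ≤ P → (∀ u ∈ U, c * u * c⁻¹ ∈ U) → U = F ∨ U = P := by
    intro U h5 h6 h7
    rw [hF]
    exact hB.irred (hF ▸ h5) h6 c hc5 hc1 h7
  -- centre of `P`
  have hcen : ∀ w ∈ P, (∀ x ∈ P, w * x = x * w) → w ∈ F := by
    let Zc : Subgroup Y := P ⊓ Subgroup.centralizer (P : Set Y)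
    have hZmem : ∀ w, w ∈ Zc ↔ w ∈ P ∧ ∀ x ∈ P, w * x = x * w := by
      intro w
      rw [Subgroup.mem_inf, Subgroup.mem_centralizer_iff]
      exact ⟨fun h => ⟨h.1, fun x hx => (h.2 x hx).symm⟩, fun h => ⟨h.1, fun x hx => (h.2 x hx).symm⟩⟩
    have hZn : Zc.Normal := by
      have : (Subgroup.centralizer (P : Set Y)).Normal := inferInstance
      exact Subgroup.normal_inf_normal P (Subgroup.centralizer (P : Set Y))
    rcases hirr Zc (fun f hf => (hZmem f).2 ⟨hFP hf, fun x _ => (hcF f hf x).symm⟩) inf_le_left (fun u hu => hZn.conj_mem u hu c) with h | h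
    · intro w hw hw'
      rw [← h]
      exact (hZmem w).2 ⟨hw, hw'⟩
    · exfalso
      apply not_abelian hB h2
      intro x hx y hy
      rw [← h] at hx
      exact ((hZmem x).1 hx).2 y hy
  -- a noncentral involution
  obtain ⟨x0, hx0P, hx0F, hx0⟩ : ∃ x ∈ P, x ∉ F ∧ x * x = 1 := by
    by_contra hcon
    push Not at hcon
    have hall : ∀ x ∈ P, x ∉ F → x * x = z := fun x hx hxF => (hsq x hx).resolve_left (hcon x hx hxF)
    obtain ⟨x, hx, hxF⟩ : ∃ x ∈ P, x ∉ F := by
      by_contra hcon2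
      push Not at hcon2
      have := Nat.card_le_card_of_injective _ (Subgroup.inclusion_injective (show P ≤ F from hcon2))
      omega
    let β : P →* Y :=
      { toFun := fun y => x * y * x⁻¹ * (y : Y)⁻¹
        map_one' := by simp
        map_mul' := by
          rintro ⟨a, ha⟩ ⟨b, hb⟩
          have h5 : x * b * x⁻¹ * b⁻¹ ∈ F := hF ▸ hB.comm_mem hx hb
          have h6 := hcF _ h5 a⁻¹
          change x * (a * b) * x⁻¹ * (a * b)⁻¹ = (x * a * x⁻¹ * a⁻¹) * (x * b * x⁻¹ * b⁻¹)
          calc x * (a * b) * x⁻¹ * (a * b)⁻¹ = (x * a * x⁻¹) * ((x * b * x⁻¹ * b⁻¹) * a⁻¹) := by group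
            _ = (x * a * x⁻¹) * (a⁻¹ * (x * b * x⁻¹ * b⁻¹)) := by rw [h6]
            _ = (x * a * x⁻¹ * a⁻¹) * (x * b * x⁻¹ * b⁻¹) := by group }
    have hβ : ∀ y : P, β y = x * y * x⁻¹ * (y : Y)⁻¹ := fun y => rfl
    have hβF : β.range ≤ F := by
      rintro _ ⟨y, rfl⟩
      rw [hβ, hF]
      exact hB.comm_mem hx y.2
    have h5 := β.ker.card_mul_index
    have h6 := Nat.le_of_dvd Nat.card_pos (Subgroup.card_dvd_of_le hβF)
    rw [Subgroup.index_ker, hP32] at h5
    rw [hF2] at h6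
    have h7 : 16 ≤ Nat.card β.ker := by
      by_contra h8
      push Not at h8
      have : Nat.card β.ker * Nat.card β.range ≤ 15 * 2 := Nat.mul_le_mul (by omega) h6
      omega
    have hker : ∀ y : β.ker, ((y : P) : Y) ∉ F → x * ((y : P) : Y) ∈ F := by
      intro y hyF
      by_contra hxy
      have h8 := hall _ (P.mul_mem hx (y : P).2) hxy
      have h9 : x * ((y : P) : Y) * x⁻¹ * ((y : P) : Y)⁻¹ = 1 := y.2
      rw [mul_inv_eq_one, mul_inv_eq_iff_eq_mul] at h9
      have h10 : x * ((y : P) : Y) * (x * ((y : P) : Y)) = (x * x) * (((y : P) : Y) * ((y : P) : Y)) := by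
        calc x * ((y : P) : Y) * (x * ((y : P) : Y)) = x * (((y : P) : Y) * x) * ((y : P) : Y) := by group
          _ = x * (x * ((y : P) : Y)) * ((y : P) : Y) := by rw [h9]
          _ = _ := by group
      rw [h10, hall x hx hxF, hall _ (y : P).2 hyF, hzz] at h8
      exact hz1 h8.symm
    let f : β.ker → F ⊕ F := fun y => if hy : ((y : P) : Y) ∈ F then Sum.inl ⟨_, hy⟩ else Sum.inr ⟨x * ((y : P) : Y), hker y hy⟩
    have hf : Function.Injective f := by
      intro a b hab
      by_cases ha : ((a : P) : Y) ∈ F <;> by_cases hb : ((b : P) : Y) ∈ F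
      · simp only [f, dif_pos ha, dif_pos hb, Sum.inl.injEq, Subtype.mk.injEq] at hab
        exact Subtype.ext (Subtype.ext hab)
      · simp [f, dif_pos ha, dif_neg hb] at hab
      · simp [f, dif_neg ha, dif_pos hb] at hab
      · simp only [f, dif_neg ha, dif_neg hb, Sum.inr.injEq, Subtype.mk.injEq] at hab
        exact Subtype.ext (Subtype.ext (mul_left_cancel hab))
    have h8 := Nat.card_le_card_of_injective f hf
    rw [Nat.card_sum, hF2] at h8
    omega
  -- the conjugates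
  set x1 := c * x0 * c⁻¹ with hx1
  set x2 := c * x1 * c⁻¹ with hx2
  set x3 := c * x2 * c⁻¹ with hx3
  set x4 := c * x3 * c⁻¹ with hx4
  have p1 : x1 ∈ P := hPn.conj_mem _ hx0P c
  have p2 : x2 ∈ P := hPn.conj_mem _ p1 c
  have p3 : x3 ∈ P := hPn.conj_mem _ p2 c
  have p4 : x4 ∈ P := hPn.conj_mem _ p3 c
  have conjsq : ∀ a : Y, a * a = 1 → (c * a * c⁻¹) * (c * a * c⁻¹) = 1 := by
    intro a ha
    rw [show (c * a * c⁻¹) * (c * a * c⁻¹) = c * (a * a) * c⁻¹ by group, ha]; group
  have q1 : x1 * x1 = 1 := conjsq x0 hx0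
  have q2 : x2 * x2 = 1 := conjsq x1 q1
  have q3 : x3 * x3 = 1 := conjsq x2 q2
  have q4 : x4 * x4 = 1 := conjsq x3 q3
  have hx5 : c * x4 * c⁻¹ = x0 ∨ c * x4 * c⁻¹ = z * x0 := by
    have h5 : c * x4 * c⁻¹ = (c ^ 5) * x0 * (c ^ 5)⁻¹ := by
      rw [hx4, hx3, hx2, hx1]
      simp only [pow_succ, pow_zero, one_mul, mul_inv_rev, mul_assoc]
    have h6 : c ^ 5 ∈ P := by rw [hB.phi_mem, map_pow]; exact hc5
    have h7 : (c ^ 5) * x0 * (c ^ 5)⁻¹ * x0⁻¹ ∈ F := hF ▸ hB.comm_mem h6 hx0P
    rcases hcases _ h7 with h | h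
    · left
      rw [h5]
      rwa [mul_inv_eq_one] at h
    · right
      rw [h5]
      rwa [mul_inv_eq_iff_eq_mul] at h
  -- propagation of relations
  have propC : ∀ a b : Y, b * a = a * b → (c * b * c⁻¹) * (c * a * c⁻¹) = (c * a * c⁻¹) * (c * b * c⁻¹) := by
    intro a b h
    rw [show (c * b * c⁻¹) * (c * a * c⁻¹) = c * (b * a) * c⁻¹ by group, h]; group
  have propN : ∀ a b : Y, b * a = z * (a * b) → (c * b * c⁻¹) * (c * a * c⁻¹) = z * ((c * a * c⁻¹) * (c * b * c⁻¹)) := by
    intro a b h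
    rw [show (c * b * c⁻¹) * (c * a * c⁻¹) = c * (b * a) * c⁻¹ by group, h]
    rw [show c * (z * (a * b)) * c⁻¹ = (c * z * c⁻¹) * ((c * a * c⁻¹) * (c * b * c⁻¹)) by group, hzc' c]
  -- replacing `x5` by `x0`
  have repC : ∀ a : Y, a * (c * x4 * c⁻¹) = (c * x4 * c⁻¹) * a → a * x0 = x0 * a := by
    intro a h
    rcases hx5 with h5 | h5
    · rwa [h5] at h
    · rw [h5, ← mul_assoc, hzc a, mul_assoc, mul_assoc] at h
      exact mul_left_cancel h
  have repN : ∀ a : Y, a * (c * x4 * c⁻¹) = z * ((c * x4 * c⁻¹) * a) → a * x0 = z * (x0 * a) := by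
    intro a h
    rcases hx5 with h5 | h5
    · rwa [h5] at h
    · rw [h5, ← mul_assoc, hzc a, mul_assoc] at h
      have := mul_left_cancel h
      rw [this, mul_assoc]
  have symN : ∀ a b : Y, b * a = z * (a * b) → a * b = z * (b * a) := by
    intro a b h
    rw [h, ← mul_assoc, hzz, one_mul]
  -- the product of all conjugates
  have hT := hB.top hF hk
  have hx4F : ∃ f ∈ F, x4 = (x0 * x1 * x2 * x3)⁻¹ * f := by
    set π := QuotientGroup.mk' F with hπ
    have hπ1 : ∀ y : Y, π y = 1 ↔ y ∈ F := fun y => QuotientGroup.eq_one_iff y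
    have hcv := (cv_five hT (g := π c) (s := φ c) rfl hc5 hc1).2
    have h5 : π (x0 * x1 * x2 * x3 * x4) ∈ cv (P.map π) (π c) := by
      refine ⟨(mk_mem_map hFP _).2 (P.mul_mem (P.mul_mem (P.mul_mem (P.mul_mem hx0P p1) p2) p3) p4), ?_⟩
      have h6 : c * (x0 * x1 * x2 * x3 * x4) * c⁻¹ = x1 * x2 * x3 * x4 * (c * x4 * c⁻¹) := by
        rw [show c * (x0 * x1 * x2 * x3 * x4) * c⁻¹ = (c * x0 * c⁻¹) * (c * x1 * c⁻¹) * (c * x2 * c⁻¹) * (c * x3 * c⁻¹) * (c * x4 * c⁻¹) by group]
      have h7 : π (c * x4 * c⁻¹) = π x0 := by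
        rcases hx5 with h | h
        · rw [h]
        · rw [h, map_mul, (hπ1 z).2 hzF, one_mul]
      have h8 : π c * π (x0 * x1 * x2 * x3 * x4) * (π c)⁻¹ = π (c * (x0 * x1 * x2 * x3 * x4) * c⁻¹) := by
        simp only [map_mul, map_inv]
      rw [h8, h6, map_mul, h7]
      have h9 := hT.comm _ ((mk_mem_map hFP (x1 * x2 * x3 * x4)).2 (P.mul_mem (P.mul_mem (P.mul_mem p1 p2) p3) p4)) _
        ((mk_mem_map hFP x0).2 hx0P)
      rw [h9]
      simp only [map_mul, mul_assoc]
      rfl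
    rw [hcv, Subgroup.mem_bot, hπ1] at h5
    exact ⟨_, h5, by group⟩
  have hm : (x0 * x1 * x2 * x3) * (x0 * x1 * x2 * x3) = 1 := by
    obtain ⟨f, h5, h6⟩ := hx4F
    have h7 := q4
    have hff : f * f = 1 := by
      rcases hcases f h5 with h | h
      · rw [h, one_mul]
      · rw [h, hzz]
    rw [h6] at h7
    set m := x0 * x1 * x2 * x3 with hm
    have h8 : m⁻¹ * f * (m⁻¹ * f) = (m * m)⁻¹ := by
      have h9 := hcF f h5 m⁻¹
      calc m⁻¹ * f * (m⁻¹ * f) = m⁻¹ * (f * m⁻¹) * f := by group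
        _ = m⁻¹ * (m⁻¹ * f) * f := by rw [h9]
        _ = (m * m)⁻¹ * (f * f) := by group
        _ = (m * m)⁻¹ := by rw [hff, mul_one]
    rw [h8, inv_eq_one] at h7
    exact h7
  have asc : ∀ {a b c d : Y}, a * b = c * d → ∀ t, a * (b * t) = c * (d * t) := by
    intro a b c d h t
    rw [← mul_assoc, h, mul_assoc]
  have asc3 : ∀ {a b c d e : Y}, a * b = c * (d * e) → ∀ t, a * (b * t) = c * (d * (e * t)) := by
    intro a b c d e h t
    rw [← mul_assoc, h, mul_assoc, mul_assoc]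
  have asc1 : ∀ {a b : Y}, a * b = 1 → ∀ t, a * (b * t) = t := by
    intro a b h t
    rw [← mul_assoc, h, one_mul]
  have c0' := asc (hzc x0)
  have c1' := asc (hzc x1)
  have c2' := asc (hzc x2)
  have c3' := asc (hzc x3)
  have z' := asc1 hzz
  have q0' := asc1 hx0
  have q1' := asc1 q1
  have q2' := asc1 q2
  have q3' := asc1 q3
  -- all pairs do not commute
  have hall : x1 * x0 = z * (x0 * x1) ∧ x2 * x0 = z * (x0 * x2) := by
    rcases hcm x0 hx0P x1 p1 with h10 | h10
    · rcases hcm x0 hx0P x2 p2 with h20 | h20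
      · -- everything commutes with `x0`
        exfalso
        have h21 : x2 * x1 = x1 * x2 := propC _ _ h10
        have h32 : x3 * x2 = x2 * x3 := propC _ _ h21
        have h43 : x4 * x3 = x3 * x4 := propC _ _ h32
        have h54 : (c * x4 * c⁻¹) * x4 = x4 * (c * x4 * c⁻¹) := propC _ _ h43
        have h31 : x3 * x1 = x1 * x3 := propC _ _ h20
        have h42 : x4 * x2 = x2 * x4 := propC _ _ h31
        have h53 : (c * x4 * c⁻¹) * x3 = x3 * (c * x4 * c⁻¹) := propC _ _ h42
        have h40 := repC x4 h54.symm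
        have h30 := repC x3 h53.symm
        let W : Subgroup Y := P ⊓ Subgroup.centralizer ({x0, x1, x2, x3, x4} : Set Y)
        have hWmem : ∀ w, w ∈ W ↔ w ∈ P ∧ w * x0 = x0 * w ∧ w * x1 = x1 * w ∧ w * x2 = x2 * w ∧ w * x3 = x3 * w ∧ w * x4 = x4 * w := by
          intro w
          rw [Subgroup.mem_inf, Subgroup.mem_centralizer_iff]
          simp only [Set.mem_insert_iff, Set.mem_singleton_iff, forall_eq_or_imp, forall_eq]
          constructor
          · rintro ⟨h1, h2, h3, h4, h5, h6⟩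
            exact ⟨h1, h2.symm, h3.symm, h4.symm, h5.symm, h6.symm⟩
          · rintro ⟨h1, h2, h3, h4, h5, h6⟩
            exact ⟨h1, h2.symm, h3.symm, h4.symm, h5.symm, h6.symm⟩
        have hFW : F ≤ W := by
          intro f hf
          rw [hWmem]
          exact ⟨hFP hf, (hcF f hf _).symm, (hcF f hf _).symm, (hcF f hf _).symm, (hcF f hf _).symm, (hcF f hf _).symm⟩
        have hx0W : x0 ∈ W := by
          rw [hWmem]
          exact ⟨hx0P, rfl, h10.symm, h20.symm, h30.symm, h40.symm⟩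
        rcases hirr W hFW inf_le_left (by
          intro w hw
          rw [hWmem] at hw ⊢
          obtain ⟨w1, w2, w3, w4, w5, w6⟩ := hw
          refine ⟨hPn.conj_mem w w1 c, ?_, propC _ _ w2, propC _ _ w3, propC _ _ w4, propC _ _ w5⟩
          exact repC _ (propC _ _ w6)) with h | h
        · rw [h] at hx0W
          exact hx0F hx0W
        · apply hx0F
          apply hcen x0 hx0P
          intro x hx
          rw [← h, hWmem] at hx
          exact hx.2.1.symm
      · -- `b01 = 1`, `b02 = z`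
        exfalso
        have h21 : x2 * x1 = x1 * x2 := propC _ _ h10
        have h32 : x3 * x2 = x2 * x3 := propC _ _ h21
        have h31 : x3 * x1 = z * (x1 * x3) := propN _ _ h20
        have h42 : x4 * x2 = z * (x2 * x4) := propN _ _ h31
        have h53 : (c * x4 * c⁻¹) * x3 = z * (x3 * (c * x4 * c⁻¹)) := propN _ _ h42
        have h30 := repN x3 (symN _ _ h53)
        have h10' := asc h10
        have h21' := asc h21
        have h32' := asc h32
        have h20' := asc3 h20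
        have h31' := asc3 h31
        have h30' := asc3 h30
        apply hz1
        rw [← hm]
        simp only [mul_assoc, hzc x0, hzc x1, hzc x2, hzc x3, c0', c1', c2', c3', hzz, z', hx0, q1, q2, q3, q0', q1', q2', q3',
          h10, h20, h30, h21, h31, h32, h10', h20', h30', h21', h31', h32', mul_one, one_mul]
    · rcases hcm x0 hx0P x2 p2 with h20 | h20
      · exfalso
        have h21 : x2 * x1 = z * (x1 * x2) := propN _ _ h10
        have h32 : x3 * x2 = z * (x2 * x3) := propN _ _ h21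
        have h31 : x3 * x1 = x1 * x3 := propC _ _ h20
        have h42 : x4 * x2 = x2 * x4 := propC _ _ h31
        have h53 : (c * x4 * c⁻¹) * x3 = x3 * (c * x4 * c⁻¹) := propC _ _ h42
        have h30 := repC x3 h53.symm
        have h10' := asc3 h10
        have h21' := asc3 h21
        have h32' := asc3 h32
        have h20' := asc h20
        have h31' := asc h31
        have h30' := asc h30
        apply hz1
        rw [← hm]
        simp only [mul_assoc, hzc x0, hzc x1, hzc x2, hzc x3, c0', c1', c2', c3', hzz, z', hx0, q1, q2, q3, q0', q1', q2', q3',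
          h10, h20, h30, h21, h31, h32, h10', h20', h30', h21', h31', h32', mul_one, one_mul]
      · exact ⟨h10, h20⟩
  obtain ⟨h10, h20⟩ := hall
  have h21 : x2 * x1 = z * (x1 * x2) := propN _ _ h10
  have h32 : x3 * x2 = z * (x2 * x3) := propN _ _ h21
  have h31 : x3 * x1 = z * (x1 * x3) := propN _ _ h20
  have h42 : x4 * x2 = z * (x2 * x4) := propN _ _ h31
  have h53 : (c * x4 * c⁻¹) * x3 = z * (x3 * (c * x4 * c⁻¹)) := propN _ _ h42
  have h30 := repN x3 (symN _ _ h53)
  have hzS : ∀ S : Subgroup Y, x0 ∈ S → x1 ∈ S → z ∈ S := by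
    intro S hs0 hs1
    have h5 : z = (x1 * x0) * (x0 * x1)⁻¹ := by rw [h10]; group
    rw [h5]
    exact S.mul_mem (S.mul_mem hs1 hs0) (S.inv_mem (S.mul_mem hs0 hs1))
  have hFS : ∀ S : Subgroup Y, z ∈ S → F ≤ S := by
    intro S hS f hf
    rcases hcases f hf with h | h
    · rw [h]; exact S.one_mem
    · rw [h]; exact hS
  have hgen : P ≤ Subgroup.closure {x0, x1, x2, x3} := by
    set S := Subgroup.closure ({x0, x1, x2, x3} : Set Y) with hS
    have s0 : x0 ∈ S := Subgroup.subset_closure (by simp)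
    have s1 : x1 ∈ S := Subgroup.subset_closure (by simp)
    have s2 : x2 ∈ S := Subgroup.subset_closure (by simp)
    have s3 : x3 ∈ S := Subgroup.subset_closure (by simp)
    have hFS' : F ≤ S := hFS S (hzS S s0 s1)
    have s4 : x4 ∈ S := by
      obtain ⟨f, hf, h5⟩ := hx4F
      rw [h5]
      exact S.mul_mem (S.inv_mem (S.mul_mem (S.mul_mem (S.mul_mem s0 s1) s2) s3)) (hFS' hf)
    have hSP : S ≤ P := by
      rw [hS, Subgroup.closure_le]
      rintro y (rfl | rfl | rfl | rfl)
      · exact hx0P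
      · exact p1
      · exact p2
      · exact p3
    have hinv : S.map (MulAut.conj c).toMonoidHom ≤ S := by
      rw [hS, MonoidHom.map_closure, Subgroup.closure_le]
      rintro _ ⟨y, (rfl | rfl | rfl | rfl), rfl⟩
      · exact s1
      · exact s2
      · exact s3
      · exact s4
    rcases hirr S hFS' hSP (fun u hu => hinv ⟨u, hu, rfl⟩) with h | h
    · rw [h] at s0
      exact (hx0F s0).elim
    · exact h.ge
  have hzP : z ∈ P := hFP hzF
  refine struct (Q := P) hP32 (x0 := ⟨x0, hx0P⟩) (x1 := ⟨x1, p1⟩) (x2 := ⟨x2, p2⟩) (x3 := ⟨x3, p3⟩) (z := ⟨z, hzP⟩)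
    (Subtype.ext hzz) (fun h => hz1 (congrArg Subtype.val h)) (fun x => Subtype.ext (hzc x)) (Subtype.ext hx0)
    (Subtype.ext q1) (Subtype.ext q2) (Subtype.ext q3) (Subtype.ext h10) (Subtype.ext h20) (Subtype.ext h30)
    (Subtype.ext h21) (Subtype.ext h31) (Subtype.ext h32) ?_ ?_
  · rintro ⟨w, hw⟩ h
    have h5 := hcen w hw (fun x hx => congrArg Subtype.val (h ⟨x, hx⟩))
    rcases hcases w h5 with h6 | h6
    · exact Or.inl (Subtype.ext h6)
    · exact Or.inr (Subtype.ext h6)
  · intro S s0 s1 s2 s3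
    rw [eq_top_iff]
    rintro ⟨y, hy⟩ -
    have h5 : Subgroup.closure {x0, x1, x2, x3} ≤ S.map P.subtype := by
      rw [Subgroup.closure_le]
      rintro y (rfl | rfl | rfl | rfl)
      · exact ⟨_, s0, rfl⟩
      · exact ⟨_, s1, rfl⟩
      · exact ⟨_, s2, rfl⟩
      · exact ⟨_, s3, rfl⟩
    obtain ⟨y', hy', h6⟩ := h5 (hgen hy)
    have : y' = ⟨y, hy⟩ := Subtype.ext h6
    rw [← this]
    exact hy'

end Cfsg.Agent.H38.SA5
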