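import Mathlib
import Cfsg.Agent.H38.SR4A

set_option autoImplicit false
set_option linter.unusedSectionVars false
set_option linter.unusedVariables false

/-! `S₆` acting faithfully on a group of order 16 and exponent 2: sections of order 32, second part. -/

namespace Cfsg.Agent.H38.SR4

open Equiv

variable {Y G : Type*} [Group Y] [Finite Y] [Group G] {V : Subgroup Y} {φ : Y →* G} {ι : Perm (Fin 6) →* G}

theorem kap_conj (h : Hyp V φ ι) {ρ e : Y} (hc : φ (ρ * e * ρ⁻¹) = φ e) (v : V) :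
    ρ * kap h e v * ρ⁻¹ = kap h e ⟨ρ * v * ρ⁻¹, h.conj_mem v.2 ρ⟩ := by
  rw [kap_apply, kap_apply]
  have h1 := h.conj_eq hc (h.conj_mem v.2 ρ)
  change ρ * (e * v * e⁻¹ * (v : Y)⁻¹) * ρ⁻¹ = e * (ρ * v * ρ⁻¹) * e⁻¹ * (ρ * v * ρ⁻¹)⁻¹
  rw [h1]
  group

theorem conj_range (h : Hyp V φ ι) {ρ e : Y} (hc : φ (ρ * e * ρ⁻¹) = φ e) {x : Y} (hx : x ∈ (kap h e).range) :
    ρ * x * ρ⁻¹ ∈ (kap h e).range := by
  obtain ⟨v, rfl⟩ := hx
  exact ⟨_, (kap_conj h hc v).symm⟩

theorem conj_cv (h : Hyp V φ ι) {ρ e : Y} (hc : φ (ρ * e * ρ⁻¹) = φ e) {x : Y} (hx : x ∈ cv V e) :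
    ρ * x * ρ⁻¹ ∈ cv V e := by
  rw [h.cv_eq hc, h.cv_conj]
  exact ⟨x, hx, rfl⟩

theorem conj_sq (h : Hyp V φ ι) {ρ e : Y} (hc : φ (ρ * e * ρ⁻¹) = φ e) (hee : e * e ∈ V) :
    (e * e) * (ρ * (e * e) * ρ⁻¹) ∈ (kap h e).range := by
  obtain ⟨u, hu, h1⟩ := h.exists_mul hc.symm
  refine ⟨⟨u, hu⟩, ?_⟩
  rw [kap_apply]
  change e * u * e⁻¹ * u⁻¹ = _
  have h2 : ρ * (e * e) * ρ⁻¹ = (e * u) * (e * u) := by rw [← h1]; group
  have h3 : e * u * e⁻¹ ∈ V := h.conj_mem hu e
  have h4 : (e * e) * u = u * (e * e) := h.comm _ hee _ hu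
  have h5 : (e * e) * (e * e) = 1 := h.sq _ hee
  rw [h2, h.inv_eq hu]
  calc e * u * e⁻¹ * u = (e * u * e⁻¹) * ((e * e) * (e * e)) * u := by rw [h5, mul_one]
    _ = (e * u * e) * ((e * e) * u) := by group
    _ = (e * u * e) * (u * (e * e)) := by rw [h4]
    _ = ((e * u) * (e * u)) * (e * e) := by group
    _ = (e * e) * ((e * u) * (e * u)) := by
      have h6 : (e * u) * (e * u) ∈ V := by rw [← h2]; exact h.conj_mem hee ρ
      exact h.comm _ h6 _ hee

/-- the subgroup generated by a subgroup and one element -/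
def dsub (h : Hyp V φ ι) (R : Subgroup Y) (hR : R ≤ V) (q : Y) (hq : q ∈ V) : Subgroup Y where
  carrier := {x | x ∈ R ∨ q * x ∈ R}
  one_mem' := Or.inl R.one_mem
  mul_mem' := by
    have hqR : ∀ r ∈ R, q * r = r * q := fun r hr => h.comm q hq r (hR hr)
    have hqx : ∀ x, q * x ∈ R → x ∈ V := by
      intro x hx
      have := V.mul_mem (V.inv_mem hq) (hR hx)
      simpa using this
    rintro a b (ha | ha) (hb | hb)
    · exact Or.inl (R.mul_mem ha hb)
    · right
      rw [← mul_assoc, hqR a ha, mul_assoc]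
      exact R.mul_mem ha hb
    · right
      rw [← mul_assoc]
      exact R.mul_mem ha hb
    · left
      have h1 : a * b = (q * a) * (q * b) := by
        rw [show (q * a) * (q * b) = (q * (a * q)) * b by group, ← h.comm q hq a (hqx a ha), ← mul_assoc, h.sq q hq,
          one_mul]
      rw [h1]
      exact R.mul_mem ha hb
  inv_mem' := by
    have hqx : ∀ x, q * x ∈ R → x ∈ V := by
      intro x hx
      have := V.mul_mem (V.inv_mem hq) (hR hx)
      simpa using this
    rintro a (ha | ha)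
    · exact Or.inl (R.inv_mem ha)
    · right
      rw [h.inv_eq (hqx a ha)]
      exact ha

theorem cv_three (h : Hyp V φ ι) {e : Y} {s r : Perm (Fin 6)} (he : φ e = ι s) (hss : s * s = 1)
    (hrs : r * s = s * r) (hr3 : r ^ 3 = 1) (hr1 : r ≠ 1) (h8 : Nat.card (cv V e) = 8) : e * e ∈ (kap h e).range := by
  classical
  by_contra hcon
  obtain ⟨ρ, hρ⟩ := h.lift r
  have hee : e * e ∈ V := by rw [h.phi_mem, map_mul, he, ← map_mul, hss, map_one]
  have hc : ∀ n : ℕ, φ (ρ ^ n * e * (ρ ^ n)⁻¹) = φ e := by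
    intro n
    rw [map_mul, map_mul, map_inv, map_pow, hρ, he, ← map_pow, ← map_mul, ← map_inv, ← map_mul]
    congr 1
    have h1 : Commute (r ^ n) s := Commute.pow_left hrs n
    rw [h1.eq, mul_inv_cancel_right]
  set R := (kap h e).range with hR
  have hRV : R ≤ V := range_le h e
  have hRcv : R ≤ cv V e := range_le_cv h e hee
  have hR2 : Nat.card R = 2 := by
    have := card_eq h e
    rw [card_V h, h8, ← hR] at this
    omega
  have heecv : e * e ∈ cv V e := ⟨hee, by group⟩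
  let D := dsub h R hRV (e * e) hee
  have hDmem : ∀ x, x ∈ D ↔ x ∈ R ∨ (e * e) * x ∈ R := fun x => Iff.rfl
  have hRD : R ≤ D := fun x hx => Or.inl hx
  have heeD : e * e ∈ D := by
    right
    rw [h.sq _ hee]; exact R.one_mem
  have hDcv : D ≤ cv V e := by
    rintro x (hx | hx)
    · exact hRcv hx
    · have := (cv V e).mul_mem ((cv V e).inv_mem heecv) (hRcv hx)
      rwa [inv_mul_cancel_left] at this
  have hD4 : Nat.card D ≤ 2 * Nat.card R := by
    have h1 : Nat.card (Bool × R) = 2 * Nat.card R := by rw [Nat.card_prod, Nat.card_eq_fintype_card (α := Bool), Fintype.card_bool]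
    rw [← h1]
    let f : D → Bool × R := fun x => if hx : (x : Y) ∈ R then (false, ⟨x, hx⟩) else (true, ⟨(e * e) * x, x.2.resolve_left hx⟩)
    refine Nat.card_le_card_of_injective f ?_
    intro x y hxy
    by_cases hx : (x : Y) ∈ R <;> by_cases hy : (y : Y) ∈ R
    · simp only [f, dif_pos hx, dif_pos hy, Prod.mk.injEq, Subtype.mk.injEq, true_and] at hxy
      exact Subtype.ext hxy
    · simp [f, dif_pos hx, dif_neg hy] at hxy
    · simp [f, dif_neg hx, dif_pos hy] at hxy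
    · simp only [f, dif_neg hx, dif_neg hy, Prod.mk.injEq, Subtype.mk.injEq, true_and] at hxy
      exact Subtype.ext (mul_left_cancel hxy)
  have hD4' : 4 ≤ Nat.card D := by
    obtain ⟨k, -, hk⟩ := card_pow h D (hDcv.trans (cv_le e))
    have h1 : Nat.card R ≠ Nat.card D := by
      intro h1
      have := Subgroup.eq_of_le_of_card_ge hRD h1.ge
      exact hcon (this ▸ heeD)
    have h2 := Nat.le_of_dvd Nat.card_pos (Subgroup.card_dvd_of_le hRD)
    rw [hR2] at h1 h2
    rw [hk] at h1 h2 ⊢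
    have h3 : 2 ≤ k := by
      by_contra h4
      push Not at h4
      interval_cases k <;> simp_all
    calc 4 = 2 ^ 2 := by norm_num
      _ ≤ 2 ^ k := Nat.pow_le_pow_right (by norm_num) h3
  have s0 : ∀ b ∈ R, (ρ * ρ) * b * (ρ * ρ)⁻¹ = b := by
    refine step h (A := ⊥) bot_le hRV (by rw [hR2, Subgroup.card_bot]) ρ ?_ ?_
    · intro a ha
      rw [Subgroup.mem_bot] at ha
      subst ha
      group
    · intro b hb
      have := conj_range h (ρ := ρ) (by simpa using hc 1) hb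
      exact this
  have s1 : ∀ b ∈ D, ((ρ * ρ) * (ρ * ρ)) * b * ((ρ * ρ) * (ρ * ρ))⁻¹ = b := by
    refine step h hRD (hDcv.trans (cv_le e)) hD4 (ρ * ρ) s0 ?_
    have hc2 : φ ((ρ * ρ) * e * (ρ * ρ)⁻¹) = φ e := by have := hc 2; rwa [pow_two] at this
    rintro b (hb | hb)
    · exact Or.inl (conj_range h hc2 hb)
    · right
      have h1 := conj_range h hc2 hb
      have h2 := conj_sq h hc2 hee
      have h3 := R.mul_mem h2 h1
      have h4 : (e * e) * ((ρ * ρ) * (e * e) * (ρ * ρ)⁻¹) * ((ρ * ρ) * ((e * e) * b) * (ρ * ρ)⁻¹)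
        = (e * e) * ((ρ * ρ) * (((e * e) * (e * e)) * b) * (ρ * ρ)⁻¹) := by group
      rw [h4, h.sq _ hee, one_mul] at h3
      exact h3
  have s2 := step h hDcv (cv_le e) (by rw [h8]; omega) ((ρ * ρ) * (ρ * ρ)) s1 (by
    intro b hb
    refine conj_cv h ?_ hb
    have := hc 4
    rwa [show ρ ^ 4 = (ρ * ρ) * (ρ * ρ) by simp only [pow_succ, pow_zero, one_mul, mul_assoc]] at this)
  have s3 := step h (cv_le e) le_rfl (by rw [card_V h, h8]) (((ρ * ρ) * (ρ * ρ)) * ((ρ * ρ) * (ρ * ρ))) s2 (by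
    intro b hb
    exact h.conj_mem hb _)
  have h9 := h.self _ s3
  rw [h.phi_mem] at h9
  simp only [map_mul, hρ] at h9
  simp only [← map_mul] at h9
  have h10 := h.inj (h9.trans (map_one ι).symm)
  apply hr1
  have h11 : r * r * (r * r) * (r * r * (r * r)) * (r * r * (r * r) * (r * r * (r * r))) = (r ^ 3) ^ 5 * r := by simp only [pow_succ, pow_zero, one_mul, mul_assoc]
  rw [h11, hr3, one_pow, one_mul] at h10
  exact h10

theorem invol_cases (s : Perm (Fin 6)) (hs : s * s = 1) : s = 1 ∨ (∃ r : Perm (Fin 6), r * t0 * r⁻¹ = s) ∨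
    ∃ r : Perm (Fin 6), r * s = s * r ∧ r ^ 3 = 1 ∧ r ≠ 1 := by
  classical
  by_cases h1 : s = 1
  · exact Or.inl h1
  right
  have ho : orderOf s = 2 := orderOf_eq_prime (by rw [pow_two, hs]) h1
  obtain ⟨n, hn⟩ := Equiv.Perm.cycleType_prime_order (σ := s) (by rw [ho]; exact Nat.prime_two)
  rw [ho] at hn
  have hsum := s.sum_cycleType_le
  rw [hn, Multiset.sum_replicate, Fintype.card_fin, smul_eq_mul] at hsum
  have hn3 : n < 3 := by omega
  have hconj : ∀ s0 r0 : Perm (Fin 6), r0 * s0 = s0 * r0 → r0 ^ 3 = 1 → r0 ≠ 1 → IsConj s0 s →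
      ∃ r : Perm (Fin 6), r * s = s * r ∧ r ^ 3 = 1 ∧ r ≠ 1 := by
    intro s0 r0 hc h3 hne hcj
    obtain ⟨g, hg⟩ := isConj_iff.1 hcj
    refine ⟨g * r0 * g⁻¹, ?_, ?_, ?_⟩
    · rw [← hg]
      calc g * r0 * g⁻¹ * (g * s0 * g⁻¹) = g * (r0 * s0) * g⁻¹ := by group
        _ = g * (s0 * r0) * g⁻¹ := by rw [hc]
        _ = g * s0 * g⁻¹ * (g * r0 * g⁻¹) := by group
    · rw [conj_pow, h3]; group
    · intro h4
      apply hne
      have : r0 = g⁻¹ * (g * r0 * g⁻¹) * g := by group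
      rw [this, h4]; group
  interval_cases n
  · right
    refine hconj (swap 0 1) (swap 2 3 * swap 3 4) (by decide +kernel) (by decide +kernel) (by decide +kernel) ?_
    rw [Equiv.Perm.isConj_iff_cycleType_eq, hn]
    decide +kernel
  · left
    have : IsConj t0 s := by
      rw [Equiv.Perm.isConj_iff_cycleType_eq, hn]
      decide +kernel
    exact isConj_iff.1 this
  · right
    refine hconj (swap 0 1 * swap 2 3 * swap 4 5) (swap 0 2 * swap 2 4 * (swap 1 3 * swap 3 5)) (by decide +kernel) (by decide +kernel) (by decide +kernel) ?_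
    rw [Equiv.Perm.isConj_iff_cycleType_eq, hn]
    decide +kernel

end Cfsg.Agent.H38.SR4
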