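import Mathlib
import Cfsg.Agent.H38.SR4B

set_option autoImplicit false
set_option linter.unusedSectionVars false
set_option linter.unusedVariables false

/-! `S₆` acting faithfully on a group of order 16 and exponent 2: sections of order 32, third part. -/

namespace Cfsg.Agent.H38.SR4

open Equiv

variable {Y G : Type*} [Group Y] [Finite Y] [Group G] {V : Subgroup Y} {φ : Y →* G} {ι : Perm (Fin 6) →* G}

theorem card_centralizer_t0 : Nat.card (Subgroup.centralizer ({t0} : Set (Perm (Fin 6)))) = 16 := by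
  have hct : t0.cycleType = {2, 2} := by decide +kernel
  rw [Equiv.Perm.nat_card_centralizer, hct]
  decide

/-- conjugation action of `T` on the nonidentity elements of `W` -/
def psi (T W : Subgroup Y) (hT : ∀ y ∈ T, ∀ w ∈ W, y * w * y⁻¹ ∈ W) : T →* Perm {w : Y // w ∈ W ∧ w ≠ 1} where
  toFun y :=
    { toFun := fun w => ⟨y * w * (y : Y)⁻¹, hT y y.2 _ w.2.1, fun h => w.2.2 (by rwa [mul_inv_eq_one, mul_eq_left] at h)⟩
      invFun := fun w => ⟨(y : Y)⁻¹ * w * y, by
        have := hT (y : Y)⁻¹ (T.inv_mem y.2) _ w.2.1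
        rwa [inv_inv] at this, fun h => w.2.2 (by
          rw [mul_assoc, inv_mul_eq_one, eq_comm, mul_eq_right] at h
          exact h)⟩
      left_inv := fun w => Subtype.ext (by change (y : Y)⁻¹ * (y * w * (y : Y)⁻¹) * y = w; group)
      right_inv := fun w => Subtype.ext (by change (y : Y) * ((y : Y)⁻¹ * w * y) * (y : Y)⁻¹ = w; group) }
  map_one' := by ext w; change (1 : Y) * w * (1 : Y)⁻¹ = w; group
  map_mul' := by
    intro a b
    ext w
    change ((a : Y) * b) * w * ((a : Y) * b)⁻¹ = a * (b * w * (b : Y)⁻¹) * (a : Y)⁻¹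
    group

theorem exists_section (h : Hyp V φ ι) : ∃ E W : Subgroup Y, W ≤ E ∧ (∀ e ∈ E, ∀ w ∈ W, e * w * e⁻¹ = w) ∧
    (∀ e ∈ E, e * e ∈ W) ∧ 32 * Nat.card W ≤ Nat.card E := by
  classical
  obtain ⟨a, ha⟩ := h.lift t0
  obtain ⟨hW4, hWr⟩ := cv_t h ha ⟨1, by group⟩
  set W := cv V a with hW
  have hWV : W ≤ V := cv_le a
  let T : Subgroup Y := ((Subgroup.centralizer ({t0} : Set (Perm (Fin 6)))).map ι).comap φ
  have hVT : V ≤ T := by
    intro v hv
    rw [Subgroup.mem_comap, h.phi_mem.1 hv]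
    exact Subgroup.one_mem _
  have hTmem : ∀ y ∈ T, ∃ s : Perm (Fin 6), s * t0 = t0 * s ∧ φ y = ι s := by
    rintro y ⟨s, hs, hsy⟩
    exact ⟨s, (Subgroup.mem_centralizer_singleton_iff.1 hs), hsy.symm⟩
  have hTa : ∀ y ∈ T, φ (y * a * y⁻¹) = φ a := by
    intro y hy
    obtain ⟨s, hs, hsy⟩ := hTmem y hy
    rw [map_mul, map_mul, map_inv, hsy, ha, ← map_mul, ← map_inv, ← map_mul, hs, mul_inv_cancel_right]
  have hTW : ∀ y ∈ T, ∀ w ∈ W, y * w * y⁻¹ ∈ W := fun y hy w hw => conj_cv h (hTa y hy) hw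
  -- order of `T`
  have hTmap : T.map φ = (Subgroup.centralizer ({t0} : Set (Perm (Fin 6)))).map ι := by
    apply le_antisymm (Subgroup.map_comap_le _ _)
    rintro _ ⟨s, hs, rfl⟩
    obtain ⟨y, hy⟩ := h.lift s
    exact ⟨y, ⟨s, hs, hy.symm⟩, hy⟩
  have hTc : Nat.card T = 256 := by
    let f : T →* G := φ.comp T.subtype
    have h1 : f.ker = V.subgroupOf T := by
      ext x
      rw [MonoidHom.mem_ker, Subgroup.mem_subgroupOf, h.phi_mem]
      rfl
    have h2 : f.range = T.map φ := by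
      rw [MonoidHom.range_comp, Subgroup.range_subtype]
    have h3 := f.ker.card_mul_index
    rw [Subgroup.index_ker, h1, h2, hTmap, Subgroup.card_map_of_injective h.inj, card_centralizer_t0,
      Nat.card_congr (Subgroup.subgroupOfEquivOfLe hVT).toEquiv, card_V h] at h3
    exact h3.symm
  let ψ := psi T W hTW
  have hX3 : Nat.card {w : Y // w ∈ W ∧ w ≠ 1} = 3 := by
    have : Fintype W := Fintype.ofFinite _
    have h1 : Nat.card {w : W // w ≠ 1} = 3 := by
      rw [Nat.card_eq_fintype_card, Fintype.card_subtype_compl, Fintype.card_subtype_eq, ← Nat.card_eq_fintype_card, hW4]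
    rw [← h1]
    exact Nat.card_congr ⟨fun x => ⟨⟨x.1, x.2.1⟩, fun h => x.2.2 (congrArg Subtype.val h)⟩,
      fun x => ⟨x.1, x.1.2, fun h => x.2 (Subtype.ext h)⟩, fun _ => rfl, fun _ => rfl⟩
  have hr2 : Nat.card ψ.range ≤ 2 := by
    have h1 : Nat.card ψ.range ∣ 6 := by
      have h2 := ψ.range.card_subgroup_dvd_card
      rw [Nat.card_perm, hX3] at h2
      exact h2
    have h3 : Nat.card ψ.range ∣ 256 := by
      have h4 := ψ.ker.index_dvd_card
      rw [Subgroup.index_ker, hTc] at h4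
      exact h4
    have h5 := Nat.dvd_gcd h1 h3
    exact Nat.le_of_dvd (by norm_num) h5
  let K : Subgroup Y := ψ.ker.map T.subtype
  have hKmem : ∀ e ∈ K, e ∈ T ∧ ∀ w ∈ W, e * w * e⁻¹ = w := by
    rintro _ ⟨y, hy, rfl⟩
    refine ⟨y.2, ?_⟩
    intro w hw
    by_cases hw1 : w = 1
    · subst hw1; group
    · have h1 : ψ y = 1 := hy
      have h2 := congrArg (fun z : Perm {w : Y // w ∈ W ∧ w ≠ 1} => ((z ⟨w, hw, hw1⟩ : {w : Y // w ∈ W ∧ w ≠ 1}) : Y)) h1
      exact h2
  have hKc : 128 ≤ Nat.card K := by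
    have h1 : Nat.card K = Nat.card ψ.ker := Subgroup.card_map_of_injective T.subtype_injective
    have h2 := ψ.ker.card_mul_index
    rw [Subgroup.index_ker, hTc] at h2
    rw [h1]
    have h3 : Nat.card ψ.ker * Nat.card ψ.range ≤ Nat.card ψ.ker * 2 := Nat.mul_le_mul_left _ hr2
    omega
  have hWcomm : ∀ x ∈ W, ∀ y ∈ V, x * y = y * x := fun x hx y hy => h.comm x (hWV hx) y hy
  have hWK : W ≤ K := by
    intro w hw
    refine ⟨⟨w, hVT (hWV hw)⟩, ?_, rfl⟩
    rw [SetLike.mem_coe, MonoidHom.mem_ker]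
    ext u
    change w * u * w⁻¹ = u
    rw [hWcomm w hw u (hWV u.2.1), mul_inv_cancel_right]
  -- `K` acts trivially on `V/W`
  have hKV : ∀ e ∈ K, ∀ v ∈ V, e * v * e⁻¹ * v⁻¹ ∈ W := by
    intro e he v hv
    obtain ⟨heT, heW⟩ := hKmem e he
    have h1 := kap_conj h (hTa e heT) ⟨v, hv⟩
    have h2 : kap h a ⟨v, hv⟩ ∈ W := by rw [← hWr]; exact ⟨_, rfl⟩
    rw [heW _ h2] at h1
    have h3 : kap h a (⟨e * v * e⁻¹, h.conj_mem hv e⟩ * ⟨v, hv⟩⁻¹) = 1 := by
      rw [map_mul, map_inv, ← h1, mul_inv_cancel]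
    refine ⟨V.mul_mem (h.conj_mem hv e) (V.inv_mem hv), ?_⟩
    rw [kap_apply, mul_inv_eq_one] at h3
    exact h3
  have hKee : ∀ e ∈ K, e * e ∈ V := by
    intro e he
    apply h.self
    intro v hv
    have h1 := hKV e he v hv
    have h2 := (hKmem e he).2 _ h1
    have h3 := h.sq _ (hWV h1)
    calc e * e * v * (e * e)⁻¹ = (e * (e * v * e⁻¹ * v⁻¹) * e⁻¹) * (e * v * e⁻¹) := by group
      _ = (e * v * e⁻¹ * v⁻¹) * (e * v * e⁻¹) := by rw [h2]
      _ = (e * v * e⁻¹ * v⁻¹) * (e * v * e⁻¹ * v⁻¹) * v := by group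
      _ = v := by rw [h3, one_mul]
  refine ⟨K, W, hWK, fun e he => (hKmem e he).2, ?_, by rw [hW4]; omega⟩
  intro e he
  have hee := hKee e he
  obtain ⟨s, -, hs⟩ := hTmem e (hKmem e he).1
  have hss : s * s = 1 := by
    apply h.inj
    rw [map_mul, ← hs, ← map_mul, map_one]
    exact h.phi_mem.1 hee
  have hWcv : W ≤ cv V e := fun w hw => ⟨hWV hw, (hKmem e he).2 w hw⟩
  have heecv : e * e ∈ cv V e := ⟨hee, by group⟩
  have h4case : Nat.card (cv V e) = 4 → e * e ∈ W := by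
    intro h4
    have : W = cv V e := Subgroup.eq_of_le_of_card_ge hWcv (by rw [h4, hW4])
    rw [this]; exact heecv
  rcases invol_cases s hss with h1 | h1 | ⟨r, hr, hr3, hr1⟩
  · have heV : e ∈ V := by rw [h.phi_mem, hs, h1, map_one]
    rw [h.sq e heV]
    exact W.one_mem
  · exact h4case (cv_t h hs h1).1
  · by_cases hs1 : s = 1
    · have heV : e ∈ V := by rw [h.phi_mem, hs, hs1, map_one]
      rw [h.sq e heV]
      exact W.one_mem
    obtain ⟨k, hk, hck⟩ := card_pow h (cv V e) (cv_le e)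
    have h5 := Nat.le_of_dvd Nat.card_pos (Subgroup.card_dvd_of_le hWcv)
    rw [hW4, hck] at h5
    have hk4 : k ≠ 4 := by
      rintro rfl
      have h6 : cv V e = V := Subgroup.eq_of_le_of_card_ge (cv_le e) (by rw [hck, card_V h]; norm_num)
      have h7 : e ∈ V := h.self e (fun v hv => by rw [← h6] at hv; exact hv.2)
      rw [h.phi_mem, hs] at h7
      exact hs1 (h.inj (by rw [h7, map_one]))
    interval_cases k
    · omega
    · omega
    · exact h4case hck
    · have h8 := cv_three h hs hss hr hr3 hr1 hck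
      obtain ⟨v, hv⟩ := h8
      rw [← hv]
      exact hKV e he v v.2
    · exact (hk4 rfl).elim

theorem not_sectional (h : Hyp V φ ι) : ¬ Cfsg.SectionalPRankLE 2 4 Y := by
  intro hY
  obtain ⟨E, W, hWE, hc, hsq, hcard⟩ := exists_section h
  have hn : (W.subgroupOf E).Normal := by
    refine ⟨?_⟩
    rintro ⟨x, hx⟩ hxW ⟨g, hg⟩
    rw [Subgroup.mem_subgroupOf] at hxW ⊢
    change g * x * g⁻¹ ∈ W
    rw [hc g hg x hxW]
    exact hxW
  have hsq' : ∀ q : E ⧸ W.subgroupOf E, q * q = 1 := by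
    intro q
    obtain ⟨⟨e, he⟩, rfl⟩ := QuotientGroup.mk_surjective q
    rw [← QuotientGroup.mk_mul, QuotientGroup.eq_one_iff]
    exact hsq e he
  have hcomm : ∀ a b : E ⧸ W.subgroupOf E, a * b = b * a := by
    intro a b
    have h1 : ∀ q : E ⧸ W.subgroupOf E, q⁻¹ = q := fun q => inv_eq_of_mul_eq_one_right (hsq' q)
    calc a * b = (a * b)⁻¹ := (h1 _).symm
      _ = b⁻¹ * a⁻¹ := mul_inv_rev a b
      _ = b * a := by rw [h1, h1]
  have h1 := hY E (W.subgroupOf E) ⊤ ⟨⟨fun a b => Subtype.ext (hcomm a b)⟩⟩ (fun a _ => by rw [pow_two, hsq'])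
  rw [Subgroup.card_top] at h1
  have h2 := (W.subgroupOf E).card_mul_index
  rw [Subgroup.index, Nat.card_congr (Subgroup.subgroupOfEquivOfLe hWE).toEquiv] at h2
  have h3 : Nat.card W * Nat.card (E ⧸ W.subgroupOf E) ≤ Nat.card W * 16 := Nat.mul_le_mul_left _ h1
  have h4 : 0 < Nat.card W := Nat.card_pos
  omega

end Cfsg.Agent.H38.SR4
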