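import Mathlib
import Cfsg.Agent.H38.SR4C
import Cfsg.Agent.S4207
import Cfsg.Agent.BG.L3_4g
import Cfsg.Agent.H36.PConstr
import Cfsg.Agent.H73.Sec

set_option autoImplicit false
set_option linter.unusedSectionVars false
set_option linter.unusedVariables false

/-! A 2-constrained group of sectional 2-rank at most 4: no `S₆` in the radical quotient. -/

namespace Cfsg.Agent.H38.SR4

open Equiv
open scoped commutatorElement
open Cfsg.Agent.BG.P09

section
variable {X : Type*} [Group X] [Finite X]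

/-- elements acting trivially on the Frattini quotient of `Q = O₂(X)` lie in `Q` -/
theorem mem_of_trivial (Q : Subgroup X) [hQn : Q.Normal] (hQd : Q = Cfsg.pCore 2 X)
    (hch : Subgroup.centralizer (Q : Set X) ≤ Q) (x : X)
    (hx : ∀ y : Q, (MulAut.conjNormal (H := Q) x) y * y⁻¹ ∈ frattini Q) : x ∈ Q := by
  classical
  haveI : Fact (Nat.Prime 2) := ⟨Nat.prime_two⟩
  have hQp : IsPGroup 2 Q := by rw [hQd]; exact Cfsg.Agent.Solv.pCore_isPGroup 2
  let α : X →* MulAut (Q ⧸ frattini Q) := fratAut (MulAut.conjNormal (H := Q))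
  have hker : α.ker ≤ Q := by
    conv_rhs => rw [hQd]
    apply Cfsg.Agent.Solv.le_pCore inferInstance
    rintro ⟨x, hx⟩
    have h1 : ∀ y : Q, (MulAut.conjNormal (H := Q) x) y * y⁻¹ ∈ frattini Q := by
      intro y
      have h2 : α x (QuotientGroup.mk y) = QuotientGroup.mk y := by
        have h3 : α x = 1 := hx
        rw [h3]; rfl
      have h4 : (QuotientGroup.mk ((MulAut.conjNormal (H := Q) x) y) : Q ⧸ frattini Q) = QuotientGroup.mk y := h2
      rw [← QuotientGroup.eq_one_iff, QuotientGroup.mk_mul, h4, QuotientGroup.mk_inv, mul_inv_cancel]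
    have hpow : ∀ β : MulAut Q, (∀ y : Q, β y * y⁻¹ ∈ frattini Q) → ∃ k, β ^ 2 ^ k = 1 := by
      intro β hβ
      obtain ⟨n, hn⟩ := IsPGroup.iff_card.1 hQp
      obtain ⟨r, hr⟩ := hQp.index (frattini Q)
      let A : Subgroup (MulAut Q) :=
        { carrier := {γ | ∀ x, γ x * x⁻¹ ∈ frattini Q}
          one_mem' := fun x => by simp [one_mem]
          mul_mem' := by
            intro a b ha hb x
            have h1 := ha (b x)
            have h2 := hb x
            have := mul_mem h1 h2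
            rwa [mul_assoc, inv_mul_cancel_left] at this
          inv_mem' := by
            intro a ha x
            have h1 := ha (a⁻¹ x)
            rw [MulAut.apply_inv_self] at h1
            have := inv_mem h1
            rwa [mul_inv_rev, inv_inv] at this }
      have h1 := Cfsg.Agent.S4207.result hn hr A (fun α hα => hα)
      obtain ⟨k, -, hk⟩ := (Nat.dvd_prime_pow Fact.out).1 h1
      refine ⟨k, ?_⟩
      have h2 : (⟨β, hβ⟩ : A) ^ Nat.card A = 1 := pow_card_eq_one'
      rw [hk] at h2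
      exact congrArg Subtype.val h2
    obtain ⟨k, hk⟩ := hpow _ h1
    rw [← map_pow] at hk
    have h5 : x ^ 2 ^ k ∈ Q := by
      apply hch
      rw [Subgroup.mem_centralizer_iff]
      intro y hy
      have h6 : (MulAut.conjNormal (H := Q) (x ^ 2 ^ k)) ⟨y, hy⟩ = ⟨y, hy⟩ := by rw [hk]; rfl
      have h7 := congrArg Subtype.val h6
      rw [MulAut.conjNormal_apply] at h7
      exact (mul_inv_eq_iff_eq_mul.mp h7).symm
    obtain ⟨m, hm⟩ := hQp ⟨_, h5⟩
    refine ⟨k + m, Subtype.ext ?_⟩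
    change x ^ 2 ^ (k + m) = 1
    rw [pow_add, pow_mul]
    exact congrArg Subtype.val hm
  apply hker
  rw [MonoidHom.mem_ker]
  ext v
  induction v using QuotientGroup.induction_on with
  | H y =>
    change (QuotientGroup.mk ((MulAut.conjNormal (H := Q) x) y) : Q ⧸ frattini Q) = QuotientGroup.mk y
    have h1 := hx y
    rw [← QuotientGroup.eq_one_iff, QuotientGroup.mk_mul, QuotientGroup.mk_inv, mul_inv_eq_one] at h1
    exact h1

theorem card_frattini_quot (Q : Subgroup X) (hQp : IsPGroup 2 Q) (h4 : Cfsg.SectionalPRankLE 2 4 ↥Q) :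
    Nat.card (Q ⧸ frattini Q) ≤ 16 := by
  haveI : Fact (Nat.Prime 2) := ⟨Nat.prime_two⟩
  have h1 := Cfsg.Agent.H73.Sec.relIndex_le h4 ⊤ (frattini Q) le_top ?_ ?_
  · rw [Subgroup.relIndex_top_right] at h1
    exact h1
  · intro x _ y _
    have h1 : (⁅x, y⁆ : Q) ∈ commutator Q := Subgroup.commutator_mem_commutator trivial trivial
    have h2 := Cfsg.Agent.Solv.commutator_le_frattini_of_pGroup hQp h1
    rwa [commutatorElement_def] at h2
  · intro x _
    exact Cfsg.Agent.Solv.pow_mem_frattini_of_pGroup hQp x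

theorem no_S6 (Q : Subgroup X) [hQn : Q.Normal] (hQd : Q = Cfsg.pCore 2 X)
    (hch : Subgroup.centralizer (Q : Set X) ≤ Q) (h4 : Cfsg.SectionalPRankLE 2 4 X) {G : Type*} [Group G]
    (f : X →* G) (hf : f.ker = Q) (ι : Perm (Fin 6) →* G) (hι : Function.Injective ι) (hl : ∀ s, ∃ x, f x = ι s) : False := by
  classical
  haveI : Fact (Nat.Prime 2) := ⟨Nat.prime_two⟩
  have hQp : IsPGroup 2 Q := by rw [hQd]; exact Cfsg.Agent.Solv.pCore_isPGroup 2
  let N : Subgroup X := (frattini Q).map Q.subtype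
  have hNQ : N ≤ Q := by
    rintro _ ⟨x, -, rfl⟩
    exact x.2
  have hNmem : ∀ y : Q, (y : X) ∈ N ↔ y ∈ frattini Q := by
    intro y
    constructor
    · rintro ⟨z, hz, hzy⟩
      rwa [← Subtype.ext hzy]
    · intro h
      exact ⟨y, h, rfl⟩
  haveI hN : N.Normal := by
    have h1 : (frattini Q).Characteristic := inferInstance
    exact ConjAct.normal_of_characteristic_of_normal
  let V : Subgroup (X ⧸ N) := Q.map (QuotientGroup.mk' N)
  let φ : X ⧸ N →* G := QuotientGroup.lift N f (by rw [hf]; exact hNQ)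
  have hφ : ∀ x : X, φ (QuotientGroup.mk x) = f x := fun x => rfl
  have hmk : ∀ x : X, (QuotientGroup.mk x : X ⧸ N) ∈ V ↔ x ∈ Q := by
    intro x
    constructor
    · rintro ⟨y, hy, hyx⟩
      have h1 := QuotientGroup.eq.1 hyx
      have h2 := Q.mul_mem hy (hNQ h1)
      simpa using h2
    · intro h
      exact ⟨x, h, rfl⟩
  have hH : Hyp V φ ι := by
    refine ⟨?_, ?_, ?_, ?_, hι, ?_, ?_⟩
    · rintro _ ⟨x, hx, rfl⟩ _ ⟨y, hy, rfl⟩
      change (QuotientGroup.mk x : X ⧸ N) * QuotientGroup.mk y = QuotientGroup.mk y * QuotientGroup.mk x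
      rw [← QuotientGroup.mk_mul, ← QuotientGroup.mk_mul, QuotientGroup.eq]
      have h1 : (⁅(⟨y, hy⟩ : Q)⁻¹, (⟨x, hx⟩ : Q)⁻¹⁆ : Q) ∈ commutator Q := Subgroup.commutator_mem_commutator trivial trivial
      have h2 := (hNmem _).2 (Cfsg.Agent.Solv.commutator_le_frattini_of_pGroup hQp h1)
      rw [commutatorElement_def] at h2
      have h3 : (x * y)⁻¹ * (y * x) = ((((⟨y, hy⟩ : Q)⁻¹ * (⟨x, hx⟩ : Q)⁻¹ * ((⟨y, hy⟩ : Q)⁻¹)⁻¹ * ((⟨x, hx⟩ : Q)⁻¹)⁻¹ : Q)) : X) := by
        push_cast
        group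
      rw [h3]
      exact h2
    · rintro _ ⟨x, hx, rfl⟩
      change (QuotientGroup.mk x : X ⧸ N) * QuotientGroup.mk x = 1
      rw [← QuotientGroup.mk_mul, QuotientGroup.eq_one_iff]
      have h1 := (hNmem _).2 (Cfsg.Agent.Solv.pow_mem_frattini_of_pGroup hQp (⟨x, hx⟩ : Q))
      rw [pow_two] at h1
      exact h1
    · ext y
      obtain ⟨x, rfl⟩ := QuotientGroup.mk_surjective y
      rw [MonoidHom.mem_ker, hφ, hmk, ← hf, MonoidHom.mem_ker]
    · intro y hy
      obtain ⟨x, rfl⟩ := QuotientGroup.mk_surjective y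
      rw [hmk]
      refine mem_of_trivial Q hQd hch x ?_
      intro v
      rw [← hNmem]
      have h1 := hy (QuotientGroup.mk (v : X)) ((hmk _).2 v.2)
      rw [← QuotientGroup.mk_mul, ← QuotientGroup.mk_inv, ← QuotientGroup.mk_mul, eq_comm, QuotientGroup.eq] at h1
      have h2 := hN.conj_mem _ h1 (v : X)
      have h3 : (((MulAut.conjNormal (H := Q) x) v * v⁻¹ : Q) : X) = (v : X) * ((v : X)⁻¹ * (x * v * x⁻¹)) * (v : X)⁻¹ := by
        push_cast
        rw [MulAut.conjNormal_apply]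
        group
      rw [h3]
      exact h2
    · intro s
      obtain ⟨x, hx⟩ := hl s
      exact ⟨QuotientGroup.mk x, by rw [hφ, hx]⟩
    · have h5 := card_frattini_quot Q hQp (Cfsg.Agent.H73.Sec.mono h4 Q)
      let g : Q →* X ⧸ N := (QuotientGroup.mk' N).comp Q.subtype
      have hgr : g.range = V := by
        rw [MonoidHom.range_comp, Subgroup.range_subtype]
      have hgk : g.ker = frattini Q := by
        ext y
        rw [MonoidHom.mem_ker, ← hNmem]
        exact QuotientGroup.eq_one_iff (y : X)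
      rw [← hgr, ← Subgroup.index_ker, hgk]
      exact h5
  exact not_sectional hH (Cfsg.Agent.H73.Sec.quot h4 N)

end

end Cfsg.Agent.H38.SR4
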