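import Mathlib
import Cfsg.Agent.H38.SA5I
import Cfsg.Agent.H38.SR4D

set_option autoImplicit false
set_option linter.unusedSectionVars false
set_option linter.unusedVariables false

/-! Application to 2-constrained groups. -/

namespace Cfsg.Agent.H38.SA5

open Equiv

theorem main {X : Type*} [Group X] [Finite X] (hch : Subgroup.centralizer (Cfsg.pCore 2 X : Set X) ≤ Cfsg.pCore 2 X)
    (h4 : Cfsg.SectionalPRankLE 2 4 X)
    (hQ : ∃ A : Subgroup (X ⧸ Cfsg.pCore 2 X), Nonempty (↥A ≃* ↥(alternatingGroup (Fin 5)))) :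
    ((∀ x ∈ Cfsg.pCore 2 X, x * x = 1) ∧ (∀ x ∈ Cfsg.pCore 2 X, ∀ y ∈ Cfsg.pCore 2 X, x * y = y * x) ∧ Nat.card (Cfsg.pCore 2 X) = 16) ∨
      (Nat.card (Cfsg.pCore 2 X) = 32 ∧ IsQD (Cfsg.pCore 2 X)) := by
  classical
  have hF2 : Fact (Nat.Prime 2) := ⟨Nat.prime_two⟩
  obtain ⟨Q, hQd⟩ : ∃ Q : Subgroup X, Q = Cfsg.pCore 2 X := ⟨_, rfl⟩
  have hQn : Q.Normal := hQd ▸ inferInstance
  have hQp : IsPGroup 2 Q := by rw [hQd]; exact Cfsg.Agent.Solv.pCore_isPGroup 2
  obtain ⟨A, ⟨eA⟩⟩ := hQ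
  let L : Subgroup X := A.comap (QuotientGroup.mk' (Cfsg.pCore 2 X))
  have hQL : Q ≤ L := by
    intro x hx
    rw [Subgroup.mem_comap]
    have : (QuotientGroup.mk' (Cfsg.pCore 2 X)) x = 1 := (QuotientGroup.eq_one_iff x).2 (hQd ▸ hx)
    rw [this]; exact A.one_mem
  let ψ : L →* A := ((QuotientGroup.mk' (Cfsg.pCore 2 X)).comp L.subtype).codRestrict A (fun x => x.2)
  let φ : L →* A5 := eA.toMonoidHom.comp ψ
  let P : Subgroup L := Q.subgroupOf L
  have hker : φ.ker = P := by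
    ext x
    rw [MonoidHom.mem_ker, Subgroup.mem_subgroupOf]
    change eA (ψ x) = 1 ↔ _
    rw [map_eq_one_iff eA eA.injective, hQd, ← QuotientGroup.eq_one_iff]
    exact ⟨fun h => congrArg Subtype.val h, fun h => Subtype.ext h⟩
  have hsurj : Function.Surjective φ := by
    intro s
    obtain ⟨⟨q, hq⟩, hs⟩ := eA.surjective s
    obtain ⟨x, rfl⟩ := QuotientGroup.mk'_surjective (Cfsg.pCore 2 X) q
    exact ⟨⟨x, hq⟩, hs⟩
  have hB : Base P φ := by
    refine ⟨hker, hsurj, ?_, ?_, Cfsg.Agent.H73.Sec.mono h4 L⟩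
    · exact hQp.comap_subtype
    · intro y hy
      rw [Subgroup.mem_subgroupOf]
      refine Cfsg.Agent.H38.SR4.mem_of_trivial Q hQd (by rw [hQd]; exact hch) (y : X) ?_
      have hmap : ∀ w ∈ sqs P, ∃ v : Q, v ∈ frattini Q ∧ (v : X) = w := by
        intro w hw
        have h5 : sqs P ≤ ((frattini Q).map Q.subtype).comap L.subtype := by
          rw [sqs, Subgroup.closure_le]
          rintro _ ⟨x, hx, rfl⟩
          have h6 := Cfsg.Agent.Solv.pow_mem_frattini_of_pGroup hQp (⟨x, hx⟩ : Q)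
          refine ⟨_, h6, ?_⟩
          change ((x : X)) ^ 2 = (x : X) * x
          rw [pow_two]
        obtain ⟨v, hv, hv'⟩ := h5 hw
        exact ⟨v, hv, hv'⟩
      intro v
      obtain ⟨v', hv', h5⟩ := hmap _ (hy ⟨(v : X), hQL v.2⟩ (Subgroup.mem_subgroupOf.2 v.2))
      have h6 : (MulAut.conjNormal (H := Q) (y : X)) v * v⁻¹ = v' := by
        apply Subtype.ext
        rw [h5]
        push_cast
        rw [MulAut.conjNormal_apply]
      rw [h6]
      exact hv'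
  have e : P ≃* Q := Subgroup.subgroupOfEquivOfLe hQL
  have hcard : Nat.card Q = Nat.card P := (Nat.card_congr e.toEquiv).symm
  rw [← hQd]
  by_cases h5 : sqs P = ⊥
  · left
    have hsq : ∀ x ∈ Q, x * x = 1 := by
      intro x hx
      have h6 := mem_sqs (P := P) (x := ⟨x, hQL hx⟩) (Subgroup.mem_subgroupOf.2 hx)
      rw [h5, Subgroup.mem_bot] at h6
      exact congrArg Subtype.val h6
    refine ⟨hsq, ?_, ?_⟩
    · intro x hx y hy
      have h1 : ∀ q ∈ Q, q⁻¹ = q := fun q hq => inv_eq_of_mul_eq_one_right (hsq q hq)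
      calc x * y = (x * y)⁻¹ := (h1 _ (Q.mul_mem hx hy)).symm
        _ = y⁻¹ * x⁻¹ := mul_inv_rev x y
        _ = y * x := by rw [h1 y hy, h1 x hx]
    · rw [hcard, hB.card_P, h5, Subgroup.card_bot]
  · right
    have h6 := card_sqs _ rfl hB h5
    obtain ⟨h7, h8⟩ := extra_case hB h6
    exact ⟨hcard.trans h7, h8.of_equiv e⟩

end Cfsg.Agent.H38.SA5
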