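import Mathlib
import Cfsg.Agent.H43.SubGL4c

set_option autoImplicit false
set_option linter.unusedSectionVars false
set_option linter.unusedVariables false

/-! Nonsolvable subgroups of `A₈` with trivial 2-core and a nontrivial solvable normal subgroup. -/

namespace Cfsg.Agent.H38.SR4

open Equiv
open Cfsg.Agent.H43

theorem centralize {K : Type*} [Group K] [Finite K] (W : Subgroup K) [hWn : W.Normal] {k : ℕ} (hk : k ≤ 2)
    (hW : Nat.card W = 3 ^ k) {ℓ : ℕ} (hℓ : ℓ = 5 ∨ ℓ = 7) (c : K) (hc : c ^ ℓ = 1) : ∀ w ∈ W, c * w * c⁻¹ = w := by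
  classical
  have hp : Fact (Nat.Prime ℓ) := ⟨by rcases hℓ with rfl | rfl <;> norm_num⟩
  have : Fintype W := Fintype.ofFinite _
  let f : Function.End W := fun v => ⟨c * v * c⁻¹, hWn.conj_mem _ v.2 c⟩
  have hf0 : ∀ n : ℕ, ∀ v : W, ((f ^ n) v : K) = c ^ n * v * (c ^ n)⁻¹ := by
    intro n
    induction n with
    | zero =>
      intro v
      change (v : K) = c ^ 0 * v * (c ^ 0)⁻¹
      simp
    | succ n ih =>
      intro v
      rw [pow_succ']
      change c * ((f ^ n) v : K) * c⁻¹ = _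
      rw [ih, pow_succ']
      group
  have hf : f ^ ℓ ^ 1 = 1 := by
    funext v
    apply Subtype.ext
    rw [pow_one, hf0, hc]
    change 1 * (v : K) * 1⁻¹ = v
    simp
  have h1 := Equiv.Perm.card_fixedPoints_modEq hf
  let F : Subgroup K := W ⊓ Subgroup.centralizer {c}
  have hFmem : ∀ v, v ∈ F ↔ v ∈ W ∧ c * v * c⁻¹ = v := by
    intro v
    rw [Subgroup.mem_inf, Subgroup.mem_centralizer_singleton_iff, mul_inv_eq_iff_eq_mul]
    constructor
    · rintro ⟨h1, h2⟩; exact ⟨h1, h2.symm⟩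
    · rintro ⟨h1, h2⟩; exact ⟨h1, h2.symm⟩
  have h2 : Fintype.card (Function.fixedPoints f) = Nat.card F := by
    rw [← Nat.card_eq_fintype_card]
    refine Nat.card_congr ⟨fun x => ⟨x.1, (hFmem _).2 ⟨x.1.2, congrArg Subtype.val (show f x.1 = x.1 from x.2)⟩⟩,
      fun x => ⟨⟨x.1, ((hFmem _).1 x.2).1⟩, Subtype.ext ((hFmem _).1 x.2).2⟩, fun _ => rfl, fun _ => rfl⟩
  rw [h2, ← Nat.card_eq_fintype_card, hW] at h1
  have h3 : Nat.card F ∣ 3 ^ k := by rw [← hW]; exact Subgroup.card_dvd_of_le inf_le_left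
  obtain ⟨j, hj, hFj⟩ := (Nat.dvd_prime_pow Nat.prime_three).1 h3
  rw [hFj] at h1
  have h4 : j = k := by
    rcases hℓ with rfl | rfl
    · interval_cases k <;> interval_cases j <;> first | rfl | (revert h1; decide)
    · interval_cases k <;> interval_cases j <;> first | rfl | (revert h1; decide)
  have h5 : F = W := Subgroup.eq_of_le_of_card_ge inf_le_left (by rw [hFj, hW, h4])
  intro w hw
  rw [← h5] at hw
  exact ((hFmem w).1 hw).2

theorem card_perm8 : Nat.card (Perm (Fin 8)) = 40320 := by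
  rw [Nat.card_perm, Nat.card_eq_fintype_card, Fintype.card_fin]; rfl

theorem card_A8 : Nat.card (alternatingGroup (Fin 8)) = 20160 := by
  rw [nat_card_alternatingGroup, Nat.card_eq_fintype_card, Fintype.card_fin]; rfl

theorem centralizer_card (x : Perm (Fin 8)) {n p : ℕ} (hp : 0 < p) (hx : x.cycleType = Multiset.replicate (n + 1) p) :
    Nat.card (Subgroup.centralizer ({x} : Set (Perm (Fin 8)))) =
      (8 - (n + 1) * p).factorial * p ^ (n + 1) * (n + 1).factorial := by
  rw [Equiv.Perm.nat_card_centralizer, hx, Multiset.sum_replicate, Multiset.prod_replicate, Fintype.card_fin]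
  have h1 : (Multiset.replicate (n + 1) p).toFinset = {p} := by
    ext y
    rw [Multiset.mem_toFinset, Multiset.mem_replicate, Finset.mem_singleton]
    exact ⟨fun h => h.2, fun h => ⟨by omega, h⟩⟩
  rw [h1, Finset.prod_singleton, Multiset.count_replicate_self]
  rfl

theorem ctype {x : Perm (Fin 8)} {p : ℕ} (hp : p.Prime) (hx : x ^ p = 1) (hx1 : x ≠ 1) :
    ∃ n, (n + 1) * p ≤ 8 ∧ x.cycleType = Multiset.replicate (n + 1) p := by
  have := Fact.mk hp
  have ho : orderOf x = p := orderOf_eq_prime hx hx1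
  obtain ⟨n, hn⟩ := Equiv.Perm.cycleType_prime_order (σ := x) (by rw [ho]; exact hp)
  rw [ho] at hn
  refine ⟨n, ?_, hn⟩
  have hsum := x.sum_cycleType_le
  rwa [hn, Multiset.sum_replicate, Fintype.card_fin, smul_eq_mul] at hsum

/-- primes 5 and 7 are impossible -/
theorem no_57 (K : Subgroup (Perm (Fin 8))) (hK : K ≤ alternatingGroup (Fin 8)) (V : Subgroup K) [hVn : V.Normal]
    (hV : V ≠ ⊥) {p : ℕ} (hp : p = 5 ∨ p = 7) (hexp : ∀ x ∈ V, x ^ p = 1) : Group.IsSolvable K := by
  classical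
  have hpp : p.Prime := by rcases hp with rfl | rfl <;> norm_num
  have hF : Fact p.Prime := ⟨hpp⟩
  have hPG : IsPGroup p V := fun x => ⟨1, Subtype.ext (by rw [pow_one]; exact hexp x x.2)⟩
  obtain ⟨k, hk⟩ := hPG.exists_card_eq
  have hKd : Nat.card K ∣ 20160 := by rw [← card_A8]; exact Subgroup.card_dvd_of_le hK
  have hVd : Nat.card V ∣ 20160 := V.card_subgroup_dvd_card.trans hKd
  have hk1 : k ≤ 1 := by
    by_contra hcon
    push Not at hcon
    have h1 : p ^ 2 ∣ 20160 := (pow_dvd_pow p hcon).trans (hk ▸ hVd)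
    rcases hp with rfl | rfl <;> revert h1 <;> decide
  have hk0 : k ≠ 0 := by
    rintro rfl
    exact hV (Subgroup.card_eq_one.1 (by rw [hk]; rfl))
  have hVp : Nat.card V = p := by
    rw [hk, show k = 1 by omega, pow_one]
  have hcyc : IsCyclic V := isCyclic_of_prime_card hVp
  obtain ⟨x, hx, hx1⟩ := V.bot_or_exists_ne_one.resolve_left hV
  have hx8 : ((x : K) : Perm (Fin 8)) ^ p = 1 := congrArg Subtype.val (hexp x hx)
  obtain ⟨n, hn, hct⟩ := ctype hpp hx8 (fun h => hx1 (Subtype.ext h))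
  have hcc := centralizer_card (x : Perm (Fin 8)) hpp.pos hct
  let C : Subgroup K := (MulAut.conjNormal (H := V)).ker
  have hCx : ∀ g ∈ C, g * x * g⁻¹ = x := by
    intro g hg
    have h1 : (MulAut.conjNormal (H := V) g) ⟨x, hx⟩ = ⟨x, hx⟩ := by
      rw [MonoidHom.mem_ker] at hg
      rw [hg]; rfl
    have h2 := congrArg Subtype.val h1
    rwa [MulAut.conjNormal_apply] at h2
  have hCd : Nat.card C ∣ Nat.card (Subgroup.centralizer ({(x : Perm (Fin 8))} : Set (Perm (Fin 8)))) := by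
    have h1 : Nat.card (C.map K.subtype) = Nat.card C := Subgroup.card_map_of_injective K.subtype_injective
    rw [← h1]
    apply Subgroup.card_dvd_of_le
    rintro _ ⟨g, hg, rfl⟩
    rw [Subgroup.mem_centralizer_singleton_iff]
    have h2 := congrArg Subtype.val (hCx g hg)
    change (g : Perm (Fin 8)) * x * (g : Perm (Fin 8))⁻¹ = x at h2
    rw [mul_inv_eq_iff_eq_mul] at h2
    exact h2
  have hCs : Group.IsSolvable C := by
    rcases hp with rfl | rfl
    · have hn0 : n = 0 := by omega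
      subst hn0
      rw [hcc] at hCd
      have h30 : Nat.card C ∣ 30 := hCd
      exact Cfsg.Agent.S3378.solv_of_dvd (h30.trans (by norm_num)) (lt_of_le_of_lt (Nat.le_of_dvd (by norm_num) h30) (by norm_num))
    · have hn0 : n = 0 := by omega
      subst hn0
      rw [hcc] at hCd
      have h7 : Nat.card C ∣ 7 := hCd
      rcases (Nat.dvd_prime (by norm_num)).1 h7 with h | h
      · exact Cfsg.Agent.S0144.result 2 7 0 0 (by norm_num) (by norm_num) (by rw [h]; norm_num)
      · exact Cfsg.Agent.S0144.result 2 7 0 1 (by norm_num) (by norm_num) (by rw [h]; norm_num)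
  have hQs : Group.IsSolvable (K ⧸ C) := by
    have e : K ⧸ C ≃* (MulAut.conjNormal (H := V)).range := QuotientGroup.quotientKerEquivRange _
    have hcomm : ∀ a b : MulAut V, a * b = b * a := by
      intro a b
      obtain ⟨g, hg⟩ := hcyc.exists_generator
      obtain ⟨i, hi⟩ := Subgroup.mem_zpowers_iff.1 (hg (a g))
      obtain ⟨j, hj⟩ := Subgroup.mem_zpowers_iff.1 (hg (b g))
      apply MulEquiv.ext
      intro v
      obtain ⟨m, rfl⟩ := Subgroup.mem_zpowers_iff.1 (hg v)
      simp only [MulAut.mul_apply, map_zpow]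
      rw [← hi, ← hj]
      simp only [map_zpow]
      rw [← hi, ← hj]
      simp only [← zpow_mul]
      congr 1
      ring
    have : Group.IsSolvable (MulAut.conjNormal (H := V)).range := by
      refine Group.isSolvable_of_comm ?_
      rintro ⟨a, ha⟩ ⟨b, hb⟩
      exact Subtype.ext (hcomm a b)
    exact Group.isSolvable_of_surjective (f := e.symm.toMonoidHom) e.symm.surjective
  exact Cfsg.Agent.S3378.solvable_of_quot C hCs hQs

/-- the remaining case -/
theorem three_case (K : Subgroup (Perm (Fin 8))) (hK : K ≤ alternatingGroup (Fin 8)) (hs : ¬ Group.IsSolvable K)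
    (W : Subgroup K) [hWn : W.Normal] (hW : W ≠ ⊥) (hWp : IsPGroup 3 W) :
    Nat.card W = 3 ∧ (Nonempty (K ⧸ W ≃* alternatingGroup (Fin 5)) ∨ Nonempty (K ⧸ W ≃* Perm (Fin 5))) := by
  classical
  have hF : Fact (Nat.Prime 3) := ⟨Nat.prime_three⟩
  have hKd : Nat.card K ∣ 20160 := by rw [← card_A8]; exact Subgroup.card_dvd_of_le hK
  obtain ⟨k, hk⟩ := hWp.exists_card_eq
  have hk2 : k ≤ 2 := by
    by_contra hcon
    push Not at hcon
    have h1 : 3 ^ 3 ∣ 20160 := (pow_dvd_pow 3 hcon).trans (hk ▸ W.card_subgroup_dvd_card.trans hKd)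
    revert h1; decide
  have hk0 : k ≠ 0 := by
    rintro rfl
    exact hW (Subgroup.card_eq_one.1 (by rw [hk]; rfl))
  have hdvd : ∀ (ℓ : ℕ) (hℓ : ℓ = 5 ∨ ℓ = 7) (c : K), orderOf c = ℓ → Nat.card W ∣ (8 - ℓ).factorial * ℓ := by
    intro ℓ hℓ c hc
    have hpp : ℓ.Prime := by rcases hℓ with rfl | rfl <;> norm_num
    have hcl : c ^ ℓ = 1 := by rw [← hc]; exact pow_orderOf_eq_one c
    have h1 := centralize W hk2 hk hℓ c hcl
    have hc8 : (c : Perm (Fin 8)) ^ ℓ = 1 := congrArg Subtype.val hcl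
    have hc1 : (c : Perm (Fin 8)) ≠ 1 := by
      intro h
      have : c = 1 := Subtype.ext h
      rw [this, orderOf_one] at hc
      exact hpp.one_lt.ne hc
    obtain ⟨n, hn, hct⟩ := ctype hpp hc8 hc1
    have hn0 : n = 0 := by rcases hℓ with rfl | rfl <;> omega
    subst hn0
    have hcc := centralizer_card (c : Perm (Fin 8)) hpp.pos hct
    have h2 : Nat.card (W.map K.subtype) = Nat.card W := Subgroup.card_map_of_injective K.subtype_injective
    rw [← h2]
    have h3 : Nat.card (W.map K.subtype) ∣ Nat.card (Subgroup.centralizer ({(c : Perm (Fin 8))} : Set (Perm (Fin 8)))) := by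
      apply Subgroup.card_dvd_of_le
      rintro _ ⟨w, hw, rfl⟩
      rw [Subgroup.mem_centralizer_singleton_iff]
      have h4 := congrArg Subtype.val (h1 w hw)
      change (c : Perm (Fin 8)) * w * (c : Perm (Fin 8))⁻¹ = w at h4
      rw [mul_inv_eq_iff_eq_mul] at h4
      exact h4.symm
    rw [hcc] at h3
    simpa using h3
  have h5 : 5 ∣ Nat.card K := by
    by_contra h5
    have h7 := seven_dvd hs hKd h5
    have hF7 : Fact (Nat.Prime 7) := ⟨by norm_num⟩
    obtain ⟨c, hc⟩ := exists_prime_orderOf_dvd_card' 7 h7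
    have h1 := hdvd 7 (Or.inr rfl) c hc
    rw [hk] at h1
    have h2 : 3 ∣ 3 ^ k := dvd_pow_self 3 hk0
    have h3 := h2.trans h1
    revert h3; decide
  have hF5 : Fact (Nat.Prime 5) := ⟨by norm_num⟩
  obtain ⟨c, hc⟩ := exists_prime_orderOf_dvd_card' 5 h5
  have hk1 : k = 1 := by
    have h1 := hdvd 5 (Or.inl rfl) c hc
    rw [hk] at h1
    interval_cases k
    · exact (hk0 rfl).elim
    · rfl
    · revert h1; decide
  subst hk1
  rw [pow_one] at hk
  refine ⟨hk, ?_⟩
  obtain ⟨x, hx, hx1⟩ := W.bot_or_exists_ne_one.resolve_left hW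
  have hx3 : x ^ 3 = 1 := by
    have h1 : (⟨x, hx⟩ : W) ^ Nat.card W = 1 := pow_card_eq_one'
    rw [hk] at h1
    exact congrArg Subtype.val h1
  have hx8 : (x : Perm (Fin 8)) ^ 3 = 1 := congrArg Subtype.val hx3
  have hx81 : (x : Perm (Fin 8)) ≠ 1 := fun h => hx1 (Subtype.ext h)
  obtain ⟨n, hn, hct⟩ := ctype Nat.prime_three hx8 hx81
  have hcx : c * x * c⁻¹ = x := centralize W hk2 (by rw [hk, pow_one]) (Or.inl rfl) c (by rw [← hc]; exact pow_orderOf_eq_one c) x hx
  have hn0 : n = 0 := by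
    by_contra hn0
    have hn1 : n = 1 := by omega
    subst hn1
    have hcc := centralizer_card (x : Perm (Fin 8)) (by norm_num) hct
    have h1 : (c : Perm (Fin 8)) ∈ Subgroup.centralizer ({(x : Perm (Fin 8))} : Set (Perm (Fin 8))) := by
      rw [Subgroup.mem_centralizer_singleton_iff]
      have h2 := congrArg Subtype.val hcx
      change (c : Perm (Fin 8)) * x * (c : Perm (Fin 8))⁻¹ = x at h2
      rw [mul_inv_eq_iff_eq_mul] at h2
      exact h2
    have h2 := orderOf_dvd_natCard (⟨_, h1⟩ : Subgroup.centralizer ({(x : Perm (Fin 8))} : Set (Perm (Fin 8))))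
    rw [hcc, Subgroup.orderOf_mk, Subgroup.orderOf_coe, hc] at h2
    revert h2; decide
  subst hn0
  -- powers of `x`
  have hWx : ∀ w ∈ W, ∀ y : Fin 8, (x : Perm (Fin 8)) y = y → (w : Perm (Fin 8)) y = y := by
    intro w hw y hy
    have h1 : (⟨w, hw⟩ : W) ∈ Subgroup.zpowers (⟨x, hx⟩ : W) := by
      rw [zpowers_eq_top_of_prime_card hk (g := (⟨x, hx⟩ : W)) (fun h => hx1 (congrArg Subtype.val h))]
      trivial
    obtain ⟨m, hm⟩ := Subgroup.mem_zpowers_iff.1 h1
    have h2 : x ^ m = w := congrArg Subtype.val hm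
    rw [← h2]
    push_cast
    exact Equiv.Perm.zpow_apply_eq_self_of_apply_eq_self hy m
  have hpres : ∀ (g : K) (y : Fin 8), (x : Perm (Fin 8)) y = y → (x : Perm (Fin 8)) ((g : Perm (Fin 8)) y) = (g : Perm (Fin 8)) y := by
    intro g y hy
    have h1 := hWn.conj_mem x hx g⁻¹
    have h2 := hWx _ h1 y hy
    rw [inv_inv] at h2
    change ((g : Perm (Fin 8))⁻¹ * x * g) y = y at h2
    rw [mul_assoc, Perm.mul_apply, Perm.inv_eq_iff_eq, Perm.mul_apply] at h2
    exact h2
  have hpres' : ∀ (g : K) (y : Fin 8), (x : Perm (Fin 8)) ((g : Perm (Fin 8)) y) = (g : Perm (Fin 8)) y ↔ (x : Perm (Fin 8)) y = y := by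
    intro g y
    refine ⟨fun h => ?_, hpres g y⟩
    have h1 := hpres g⁻¹ _ h
    have h2 : ((g⁻¹ : K) : Perm (Fin 8)) ((g : Perm (Fin 8)) y) = y := by
      rw [InvMemClass.coe_inv]
      exact Equiv.symm_apply_apply _ _
    rwa [h2] at h1
  let θ : K →* Perm {y : Fin 8 // (x : Perm (Fin 8)) y = y} :=
    { toFun := fun g => (g : Perm (Fin 8)).subtypePerm (fun y => hpres' g y)
      map_one' := by ext y; rfl
      map_mul' := fun a b => by ext y; rfl }
  have hθ1 : ∀ g : K, θ g = 1 ↔ ∀ y : Fin 8, (x : Perm (Fin 8)) y = y → (g : Perm (Fin 8)) y = y := by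
    intro g
    constructor
    · intro h y hy
      exact congrArg (fun z : Perm {y : Fin 8 // (x : Perm (Fin 8)) y = y} => (z ⟨y, hy⟩ : Fin 8)) h
    · intro h
      ext ⟨y, hy⟩
      exact congrArg Fin.val (h y hy)
  have hWker : W ≤ θ.ker := fun w hw => (hθ1 w).2 (hWx w hw)
  have hsupp : (x : Perm (Fin 8)).support.card = 3 := by
    rw [← Equiv.Perm.sum_cycleType, hct]; rfl
  have hc3 : Nat.card {y : Fin 8 // ¬ (x : Perm (Fin 8)) y = y} = 3 := by
    rw [← hsupp, Nat.card_eq_fintype_card, Fintype.card_subtype]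
    rfl
  have hc5 : Nat.card {y : Fin 8 // (x : Perm (Fin 8)) y = y} = 5 := by
    have h1 : Fintype.card {y : Fin 8 // ¬ (x : Perm (Fin 8)) y = y} = _ := Fintype.card_subtype_compl (fun y : Fin 8 => (x : Perm (Fin 8)) y = y)
    rw [← Nat.card_eq_fintype_card, hc3, Fintype.card_fin] at h1
    have h2 := Fintype.card_subtype_le (fun y : Fin 8 => (x : Perm (Fin 8)) y = y)
    rw [Fintype.card_fin] at h2
    rw [Nat.card_eq_fintype_card]
    omega
  have hkerle : Nat.card θ.ker ≤ 3 := by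
    have h1 : Nat.card (alternatingGroup {y : Fin 8 // ¬ (x : Perm (Fin 8)) y = y}) = 3 := by
      have : Nontrivial {y : Fin 8 // ¬ (x : Perm (Fin 8)) y = y} := by
        rw [← Finite.one_lt_card_iff_nontrivial, hc3]; norm_num
      rw [nat_card_alternatingGroup, hc3]; rfl
    rw [← h1]
    have hpn : ∀ (g : θ.ker) (y : Fin 8), ¬ (x : Perm (Fin 8)) (((g : K) : Perm (Fin 8)) y) = ((g : K) : Perm (Fin 8)) y ↔ ¬ (x : Perm (Fin 8)) y = y :=
      fun g y => not_congr (hpres' g y)
    refine Nat.card_le_card_of_injective (fun g => ⟨((g : K) : Perm (Fin 8)).subtypePerm (hpn g), ?_⟩) ?_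
    · rw [Equiv.Perm.mem_alternatingGroup, Equiv.Perm.sign_subtypePerm]
      · exact Equiv.Perm.mem_alternatingGroup.1 (hK (g : K).2)
      · intro y hy h
        exact hy ((hθ1 g).1 g.2 y h)
    · intro a b hab
      have h2 := congrArg Subtype.val hab
      change ((a : K) : Perm (Fin 8)).subtypePerm (hpn a) = ((b : K) : Perm (Fin 8)).subtypePerm (hpn b) at h2
      apply Subtype.ext
      apply Subtype.ext
      ext y
      by_cases hy : (x : Perm (Fin 8)) y = y
      · rw [(hθ1 a).1 a.2 y hy, (hθ1 b).1 b.2 y hy]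
      · have h3 := congrArg (fun z : Perm {y : Fin 8 // ¬ (x : Perm (Fin 8)) y = y} => ((z ⟨y, hy⟩ : {y : Fin 8 // ¬ (x : Perm (Fin 8)) y = y}) : Fin 8)) h2
        exact congrArg Fin.val h3
  have hker : θ.ker = W := (Subgroup.eq_of_le_of_card_ge hWker (by rw [hk]; exact hkerle)).symm
  have e5 : {y : Fin 8 // (x : Perm (Fin 8)) y = y} ≃ Fin 5 := Finite.equivFinOfCardEq hc5
  let φ : K ⧸ W →* Perm (Fin 5) := (e5.permCongrHom.toMonoidHom).comp (QuotientGroup.lift W θ hWker)
  have hφ : Function.Injective φ := by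
    refine e5.permCongrHom.injective.comp ?_
    rw [injective_iff_map_eq_one]
    intro q hq
    obtain ⟨g, rfl⟩ := QuotientGroup.mk_surjective q
    rw [QuotientGroup.eq_one_iff, ← hker]
    exact hq
  have h5' : 5 ∣ Nat.card (K ⧸ W) := by
    have h1 := W.card_mul_index
    rw [hk] at h1
    have h2 : 5 ∣ 3 * W.index := by rw [h1]; exact h5
    exact (Nat.Coprime.dvd_mul_left (by norm_num)).1 h2
  refine deg5 φ hφ h5' ?_
  intro h6
  apply hs
  refine Cfsg.Agent.S3378.solvable_of_quot W ?_ h6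
  exact Cfsg.Agent.S0144.result 2 3 0 1 (by norm_num) (by norm_num) (by rw [hk]; norm_num)

end Cfsg.Agent.H38.SR4
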