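import Mathlib
import Cfsg.Agent.H38.SR4D
import Cfsg.Agent.H38.SR4E
import Cfsg.Agent.S3103

set_option autoImplicit false
set_option linter.unusedSectionVars false
set_option linter.unusedVariables false

/-! Radical quotients of 2-constrained groups with radical of sectional 2-rank at most 4. -/

namespace Cfsg.Agent.H38.SR4

open Equiv
open Cfsg.Agent.H43

local notation "𝔽₂" => ZMod 2

theorem exists_GL3_equiv : Nonempty (GL (Fin 3) 𝔽₂ ≃* Matrix.ProjectiveSpecialLinearGroup (Fin 3) 𝔽₂) := by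
  have hc : Subgroup.center (Matrix.SpecialLinearGroup (Fin 3) 𝔽₂) = ⊥ := by
    have h3 := Cfsg.Agent.H4.card_center_SL (F := 𝔽₂) 3 (by norm_num)
    rw [ZMod.card] at h3
    exact Subgroup.card_eq_one.1 h3
  have e2 : Matrix.ProjectiveSpecialLinearGroup (Fin 3) 𝔽₂ ≃* Matrix.SpecialLinearGroup (Fin 3) 𝔽₂ :=
    (QuotientGroup.quotientMulEquivOfEq hc).trans QuotientGroup.quotientBot
  have hb : Function.Bijective (Matrix.SpecialLinearGroup.toGL : Matrix.SpecialLinearGroup (Fin 3) 𝔽₂ →* GL (Fin 3) 𝔽₂) := by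
    constructor
    · exact Matrix.SpecialLinearGroup.toGL_injective
    · intro g
      have hd : (g : Matrix (Fin 3) (Fin 3) 𝔽₂).det = 1 := by
        have h1 : (g : Matrix (Fin 3) (Fin 3) 𝔽₂).det ≠ 0 := (Matrix.isUnits_det_units g).ne_zero
        have h2 : ∀ a : 𝔽₂, a ≠ 0 → a = 1 := by decide
        exact h2 _ h1
      obtain ⟨s, hs⟩ : ∃ s : Matrix.SpecialLinearGroup (Fin 3) 𝔽₂, (s : Matrix (Fin 3) (Fin 3) 𝔽₂) = g := ⟨⟨g, hd⟩, rfl⟩
      exact ⟨s, Units.ext ((Matrix.SpecialLinearGroup.coe_GL_coe_matrix s).trans hs)⟩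
  exact ⟨(MulEquiv.ofBijective _ hb).symm.trans e2.symm⟩

theorem nsn_case (K : Subgroup (Perm (Fin 8))) (hK : K ≤ alternatingGroup (Fin 8)) (hn : NSN K) (hnt : Nontrivial K) :
    (∃ n : ℕ, 5 ≤ n ∧ n ≤ 8 ∧ Nonempty (↥K ≃* alternatingGroup (Fin n))) ∨
    Nonempty (↥K ≃* Equiv.Perm (Fin 5)) ∨ Nonempty (↥K ≃* Equiv.Perm (Fin 6)) ∨
    Nonempty (↥K ≃* Matrix.ProjectiveSpecialLinearGroup (Fin 3) 𝔽₂) := by
  by_cases h5 : 5 ∣ Nat.card K
  · rcases five_case K hK hn h5 with h | h | h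
    · exact Or.inl h
    · exact Or.inr (Or.inl h)
    · exact Or.inr (Or.inr (Or.inl h))
  · right; right; right
    obtain ⟨e⟩ := exists_GL4_equiv
    let φ : K →* GL (Fin 4) 𝔽₂ := e.symm.toMonoidHom.comp (Subgroup.inclusion hK)
    have hφ : Function.Injective φ := e.symm.injective.comp (Subgroup.inclusion_injective hK)
    let ρ : K →* Module.End 𝔽₂ (Fin 4 → 𝔽₂) :=
      ((Matrix.toLinAlgEquiv' : Matrix (Fin 4) (Fin 4) 𝔽₂ ≃ₐ[𝔽₂] _).toMonoidHom).comp ((Units.coeHom _).comp φ)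
    have hρ : Function.Injective ρ :=
      (Matrix.toLinAlgEquiv' : Matrix (Fin 4) (Fin 4) 𝔽₂ ≃ₐ[𝔽₂] _).injective.comp (Units.val_injective.comp hφ)
    obtain ⟨k⟩ := not_five_case hn hnt ρ hρ (by rw [Module.finrank_fintype_fun_eq_card, Fintype.card_fin]) h5
      (by rw [← card_A8]; exact Subgroup.card_dvd_of_le hK)
    obtain ⟨k'⟩ := exists_GL3_equiv
    exact ⟨k.trans k'⟩

theorem primes_20160 {p : ℕ} (hp : p.Prime) (h : p ∣ 20160) : p = 2 ∨ p = 3 ∨ p = 5 ∨ p = 7 := by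
  have h1 : (20160 : ℕ) = 2 ^ 6 * 3 ^ 2 * 5 * 7 := by norm_num
  rw [h1] at h
  rcases (hp.dvd_mul).1 h with h | h
  · rcases (hp.dvd_mul).1 h with h | h
    · rcases (hp.dvd_mul).1 h with h | h
      · exact Or.inl ((Nat.prime_dvd_prime_iff_eq hp Nat.prime_two).1 (hp.dvd_of_dvd_pow h))
      · exact Or.inr (Or.inl ((Nat.prime_dvd_prime_iff_eq hp Nat.prime_three).1 (hp.dvd_of_dvd_pow h)))
    · exact Or.inr (Or.inr (Or.inl ((Nat.prime_dvd_prime_iff_eq hp Nat.prime_five).1 h)))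
  · exact Or.inr (Or.inr (Or.inr ((Nat.prime_dvd_prime_iff_eq hp (by norm_num)).1 h)))

theorem not_nsn_case (K : Subgroup (Perm (Fin 8))) (hK : K ≤ alternatingGroup (Fin 8)) (hs : ¬ Group.IsSolvable K)
    (h2 : Cfsg.pCore 2 K = ⊥) (hn : ¬ NSN K) :
    Nat.card (Cfsg.pCore 3 K) = 3 ∧ (Nonempty (K ⧸ Cfsg.pCore 3 K ≃* alternatingGroup (Fin 5)) ∨
      Nonempty (K ⧸ Cfsg.pCore 3 K ≃* Perm (Fin 5))) := by
  unfold NSN at hn
  push Not at hn
  obtain ⟨N, hNn, hNs, hN⟩ := hn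
  obtain ⟨V, p, hVn, hV, hVN, hp, hVp, hVc⟩ := Cfsg.Agent.H57.exists_normal_prime_exponent N hN hNs
  have hPG : IsPGroup p V := fun x => ⟨1, Subtype.ext (by rw [pow_one]; exact hVp x x.2)⟩
  have hF : Fact p.Prime := ⟨hp⟩
  have hKd : Nat.card K ∣ 20160 := by rw [← card_A8]; exact Subgroup.card_dvd_of_le hK
  have hpd : p ∣ 20160 := by
    obtain ⟨n, hn⟩ := hPG.exists_card_eq
    have hn0 : n ≠ 0 := by
      rintro rfl
      exact hV (Subgroup.card_eq_one.1 (by rw [hn, pow_zero]))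
    exact (dvd_pow_self p hn0).trans (hn ▸ V.card_subgroup_dvd_card.trans hKd)
  rcases primes_20160 hp hpd with rfl | rfl | h57
  · exfalso
    apply hV
    rw [← le_bot_iff, ← h2]
    exact Cfsg.Agent.Solv.le_pCore hVn hPG
  · refine three_case K hK hs (Cfsg.pCore 3 K) ?_ (Cfsg.Agent.Solv.pCore_isPGroup 3)
    intro h3
    apply hV
    rw [← le_bot_iff, ← h3]
    exact Cfsg.Agent.Solv.le_pCore hVn hPG
  · exact (hs (no_57 K hK V hV h57 hVp)).elim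

theorem first_aux {Q : Type*} [Group Q] [Finite Q] (f : Q →* ↥(alternatingGroup (Fin 8))) (hf : Function.Injective f)
    (hcore : Cfsg.pCore 2 Q = ⊥) (hQs : ¬ Group.IsSolvable Q) :
    ((∃ (F : Type) (_ : Field F) (_ : Fintype F), Fintype.card F = 2 ∧
          Nonempty (Q ≃* Matrix.ProjectiveSpecialLinearGroup (Fin 3) F)) ∨
        (∃ n : ℕ, 5 ≤ n ∧ n ≤ 8 ∧ Nonempty (Q ≃* ↥(alternatingGroup (Fin n)))) ∨
        (∃ n : ℕ, 5 ≤ n ∧ n ≤ 7 ∧ Nonempty (Q ≃* Equiv.Perm (Fin n))) ∨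
        (Nat.card ↥(Cfsg.pCore 3 Q) = 3 ∧
          (Nonempty (Q ⧸ Cfsg.pCore 3 Q ≃* ↥(alternatingGroup (Fin 5))) ∨
            Nonempty (Q ⧸ Cfsg.pCore 3 Q ≃* Equiv.Perm (Fin 5))))) := by
  classical
  let φ : Q →* Perm (Fin 8) := (alternatingGroup (Fin 8)).subtype.comp f
  have hφ : Function.Injective φ := (Subgroup.subtype_injective _).comp hf
  have e : Q ≃* φ.range := MonoidHom.ofInjective hφ
  have hK : φ.range ≤ alternatingGroup (Fin 8) := by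
    rintro _ ⟨x, rfl⟩
    exact (f x).2
  have hs : ¬ Group.IsSolvable φ.range := by
    intro h
    exact hQs (Group.isSolvable_of_surjective (f := e.symm.toMonoidHom) e.symm.surjective)
  have hnt : Nontrivial φ.range := by
    by_contra hcon
    rw [not_nontrivial_iff_subsingleton] at hcon
    exact hs inferInstance
  by_cases hn : NSN φ.range
  · rcases nsn_case φ.range hK hn hnt with ⟨n, h1, h2, ⟨k⟩⟩ | ⟨⟨k⟩⟩ | ⟨⟨k⟩⟩ | ⟨⟨k⟩⟩
    · exact Or.inr (Or.inl ⟨n, h1, h2, ⟨e.trans k⟩⟩)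
    · exact Or.inr (Or.inr (Or.inl ⟨5, by norm_num, by norm_num, ⟨e.trans k⟩⟩))
    · exact Or.inr (Or.inr (Or.inl ⟨6, by norm_num, by norm_num, ⟨e.trans k⟩⟩))
    · exact Or.inl ⟨ZMod 2, inferInstance, inferInstance, ZMod.card 2, ⟨e.trans k⟩⟩
  · have h2 : Cfsg.pCore 2 φ.range = ⊥ := by
      rw [← Cfsg.Agent.Solv.map_pCore 2 e, hcore, Subgroup.map_bot]
    obtain ⟨h3, h4⟩ := not_nsn_case φ.range hK hs h2 hn
    have hm := Cfsg.Agent.Solv.map_pCore 3 e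
    have e3 : Q ⧸ Cfsg.pCore 3 Q ≃* φ.range ⧸ Cfsg.pCore 3 φ.range := QuotientGroup.congr _ _ e hm
    refine Or.inr (Or.inr (Or.inr ⟨?_, ?_⟩))
    · have h5 : Nat.card ((Cfsg.pCore 3 Q).map (e : Q →* φ.range)) = Nat.card (Cfsg.pCore 3 Q) :=
        Subgroup.card_map_of_injective e.injective
      rw [hm] at h5
      exact h5.symm.trans h3
    · rcases h4 with ⟨⟨k⟩⟩ | ⟨⟨k⟩⟩
      · exact Or.inl ⟨e3.trans k⟩
      · exact Or.inr ⟨e3.trans k⟩

theorem first_part {X : Type*} [Group X] [Finite X] (hns : ¬ Group.IsSolvable X) (hc : Cfsg.IsPConstrained 2 X) (hO : Cfsg.oddCore X = ⊥)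
    (h4 : Cfsg.SectionalPRankLE 2 4 ↥(Cfsg.pCore 2 X)) :
    ((∃ (F : Type) (_ : Field F) (_ : Fintype F), Fintype.card F = 2 ∧
          Nonempty (X ⧸ Cfsg.pCore 2 X ≃* Matrix.ProjectiveSpecialLinearGroup (Fin 3) F)) ∨
        (∃ n : ℕ, 5 ≤ n ∧ n ≤ 8 ∧ Nonempty (X ⧸ Cfsg.pCore 2 X ≃* ↥(alternatingGroup (Fin n)))) ∨
        (∃ n : ℕ, 5 ≤ n ∧ n ≤ 7 ∧ Nonempty (X ⧸ Cfsg.pCore 2 X ≃* Equiv.Perm (Fin n))) ∨
        (Nat.card ↥(Cfsg.pCore 3 (X ⧸ Cfsg.pCore 2 X)) = 3 ∧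
          (Nonempty ((X ⧸ Cfsg.pCore 2 X) ⧸ Cfsg.pCore 3 (X ⧸ Cfsg.pCore 2 X) ≃* ↥(alternatingGroup (Fin 5))) ∨
            Nonempty ((X ⧸ Cfsg.pCore 2 X) ⧸ Cfsg.pCore 3 (X ⧸ Cfsg.pCore 2 X) ≃* Equiv.Perm (Fin 5))))) := by
  classical
  have hF2 : Fact (Nat.Prime 2) := ⟨Nat.prime_two⟩
  obtain ⟨f, hf⟩ := Cfsg.Agent.S3103.result hc hO h4
  have hcore : Cfsg.pCore 2 (X ⧸ Cfsg.pCore 2 X) = ⊥ := Cfsg.Agent.Solv.pCore_quotient_pCore 2
  have hQs : ¬ Group.IsSolvable (X ⧸ Cfsg.pCore 2 X) := by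
    intro h
    apply hns
    refine Cfsg.Agent.S3378.solvable_of_quot (Cfsg.pCore 2 X) ?_ h
    have h1 : IsPGroup 2 (Cfsg.pCore 2 X) := Cfsg.Agent.Solv.pCore_isPGroup 2
    have := h1.isNilpotent
    infer_instance
  exact first_aux f hf hcore hQs

theorem second_part {X : Type*} [Group X] [Finite X] (hch : Subgroup.centralizer (Cfsg.pCore 2 X : Set X) ≤ Cfsg.pCore 2 X)
    (h4 : Cfsg.SectionalPRankLE 2 4 X)
    (h : Nonempty (X ⧸ Cfsg.pCore 2 X ≃* Equiv.Perm (Fin 6)) ∨ Nonempty (X ⧸ Cfsg.pCore 2 X ≃* Equiv.Perm (Fin 7)) ∨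
            Nonempty (X ⧸ Cfsg.pCore 2 X ≃* ↥(alternatingGroup (Fin 8)))) : False := by
  classical
  have key : ∀ {G : Type} [Group G] (e : X ⧸ Cfsg.pCore 2 X ≃* G) (ι : Perm (Fin 6) →* G), Function.Injective ι → False := by
    intro G _ e ι hι
    refine no_S6 (Cfsg.pCore 2 X) rfl hch h4 (e.toMonoidHom.comp (QuotientGroup.mk' _)) ?_ ι hι ?_
    · ext x
      rw [MonoidHom.mem_ker]
      change e (QuotientGroup.mk x) = 1 ↔ _
      rw [map_eq_one_iff e e.injective, QuotientGroup.eq_one_iff]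
    · intro s
      obtain ⟨q, hq⟩ := e.surjective (ι s)
      obtain ⟨x, rfl⟩ := QuotientGroup.mk_surjective q
      exact ⟨x, hq⟩
  rcases h with ⟨⟨e⟩⟩ | ⟨⟨e⟩⟩ | ⟨⟨e⟩⟩
  · exact key e (MonoidHom.id _) Function.injective_id
  · exact key e (Equiv.Perm.extendDomainHom (Fin.castLEEmb (show 6 ≤ 7 by norm_num)).toEquivRange)
      (Equiv.Perm.extendDomainHom_injective _)
  · let u : ℤˣ →* Perm (Fin 2) :=
      { toFun := fun a => if a = 1 then 1 else swap 0 1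
        map_one' := by simp
        map_mul' := by decide }
    have hu : ∀ a : ℤˣ, Equiv.Perm.sign (u a) = a := by decide
    let j : Perm (Fin 6) →* Perm (Fin 6 ⊕ Fin 2) :=
      (Equiv.Perm.sumCongrHom (Fin 6) (Fin 2)).comp ((MonoidHom.id _).prod (u.comp Equiv.Perm.sign))
    have hj : Function.Injective j := by
      refine (Equiv.Perm.sumCongrHom_injective).comp ?_
      intro a b hab
      exact congrArg Prod.fst hab
    have hsign : ∀ s, Equiv.Perm.sign (j s) = 1 := by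
      intro s
      change Equiv.Perm.sign (Equiv.Perm.sumCongr s (u (Equiv.Perm.sign s))) = 1
      rw [Equiv.Perm.sign_sumCongr, hu]
      exact Int.units_mul_self _
    let ι : Perm (Fin 6) →* alternatingGroup (Fin 8) :=
      ((finSumFinEquiv (m := 6) (n := 2)).permCongrHom.toMonoidHom.comp j).codRestrict (alternatingGroup (Fin 8)) (by
        intro s
        rw [Equiv.Perm.mem_alternatingGroup]
        change Equiv.Perm.sign ((finSumFinEquiv (m := 6) (n := 2)).permCongr (j s)) = 1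
        rw [Equiv.Perm.sign_permCongr, hsign])
    refine key e ι ?_
    intro a b hab
    apply hj
    apply (finSumFinEquiv (m := 6) (n := 2)).permCongrHom.injective
    exact congrArg Subtype.val hab

end Cfsg.Agent.H38.SR4
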